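import Cfsg.Agent.H60.SLThree.MonoBase

/-!
Overgroups of the monomial group in dimension three without root elements: the products of matching entries of a
column and of the row of the inverse agree on the support.
-/

set_option autoImplicit false

namespace Cfsg.Agent.H60.SLThree

open Matrix Cfsg.Agent.H1.Decomp

variable {F : Type*} [Field F] {M : Subgroup (GL (Fin 3) F)}

/-- A diagonal element and its inverse. -/
theorem diag_mem' (hM : ContainsMon M) {p q s : Fin 3} (hpq : p ≠ q) (hps : p ≠ s) (hqs : q ≠ s) (d : Fin 3 → F)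
    (hd : d p * d q * d s = 1) :
    ∃ D ∈ M, (D : Matrix (Fin 3) (Fin 3) F) = Matrix.diagonal d ∧
      ((D⁻¹ : GL (Fin 3) F) : Matrix (Fin 3) (Fin 3) F) = Matrix.diagonal fun i => (d i)⁻¹ := by
  have h0 : ∀ i, d i ≠ 0 := fun i hi => by
    rcases tri p q s i hpq hps hqs with rfl | rfl | rfl <;> simp [hi] at hd
  obtain ⟨D, hD, hDv⟩ := diag_mem hM (fun i => Units.mk0 (d i) (h0 i)) (by
    have : ∀ f : Fin 3 → F, ∏ i, f i = f p * f q * f s := fun f => by
      rw [show (Finset.univ : Finset (Fin 3)) = {p, q, s} from (Finset.eq_univ_of_forall fun l => by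
        simpa using tri p q s l hpq hps hqs).symm]
      rw [Finset.prod_insert (by simp [hpq, hps]), Finset.prod_insert (by simp [hqs]), Finset.prod_singleton, mul_assoc]
    rw [this]; simpa using hd)
  simp only [Units.val_mk0] at hDv
  refine ⟨D, hD, hDv, Units.inv_eq_of_mul_eq_one_right ?_⟩
  rw [hDv, diagonal_mul_diagonal, ← diagonal_one]
  exact congrArg diagonal (funext fun i => mul_inv_cancel₀ (h0 i))

theorem inv_mul_entry {p q s : Fin 3} (hpq : p ≠ q) (hps : p ≠ s) (hqs : q ≠ s) (g : GL (Fin 3) F) (i j : Fin 3) :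
    ((g⁻¹ : GL (Fin 3) F) : Matrix (Fin 3) (Fin 3) F) i p * (g : Matrix (Fin 3) (Fin 3) F) p j +
      ((g⁻¹ : GL (Fin 3) F) : Matrix (Fin 3) (Fin 3) F) i q * (g : Matrix (Fin 3) (Fin 3) F) q j +
      ((g⁻¹ : GL (Fin 3) F) : Matrix (Fin 3) (Fin 3) F) i s * (g : Matrix (Fin 3) (Fin 3) F) s j =
      if i = j then 1 else 0 := by
  rw [← sum3 hpq hps hqs (fun l => ((g⁻¹ : GL (Fin 3) F) : Matrix (Fin 3) (Fin 3) F) i l *
    (g : Matrix (Fin 3) (Fin 3) F) l j), ← Matrix.mul_apply, Units.inv_mul, Matrix.one_apply]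

theorem mulVec3 {p q s : Fin 3} (hpq : p ≠ q) (hps : p ≠ s) (hqs : q ≠ s) (A : Matrix (Fin 3) (Fin 3) F)
    (v : Fin 3 → F) (k : Fin 3) : (A *ᵥ v) k = A k p * v p + A k q * v q + A k s * v s :=
  sum3 hpq hps hqs fun l => A k l * v l

/-- Converse of `pattern`. -/
theorem NoRoot.pattern' (hN : NoRoot M) {g : GL (Fin 3) F} (hg : g ∈ M) (j p : Fin 3)
    (h : ((g⁻¹ : GL (Fin 3) F) : Matrix (Fin 3) (Fin 3) F) j p = 0) :
    (g : Matrix (Fin 3) (Fin 3) F) p j = 0 := by
  have := hN.pattern (M.inv_mem hg) p j h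
  rwa [inv_inv] at this

/-- The products agree on a support of size two. -/
theorem NoRoot.rule_two (hN : NoRoot M) {g : GL (Fin 3) F} (hg : g ∈ M) {p q s : Fin 3} (hpq : p ≠ q)
    (hps : p ≠ s) (hqs : q ≠ s) {j : Fin 3} (hp : (g : Matrix (Fin 3) (Fin 3) F) p j = 0)
    (hq : (g : Matrix (Fin 3) (Fin 3) F) q j ≠ 0) (hs : (g : Matrix (Fin 3) (Fin 3) F) s j ≠ 0) :
    (g : Matrix (Fin 3) (Fin 3) F) q j * ((g⁻¹ : GL (Fin 3) F) : Matrix (Fin 3) (Fin 3) F) j q =
      (g : Matrix (Fin 3) (Fin 3) F) s j * ((g⁻¹ : GL (Fin 3) F) : Matrix (Fin 3) (Fin 3) F) j s := by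
  set G := (g : Matrix (Fin 3) (Fin 3) F)
  set Gi := ((g⁻¹ : GL (Fin 3) F) : Matrix (Fin 3) (Fin 3) F)
  have hsum : G q j * Gi j q + G s j * Gi j s = 1 := by
    have h := inv_mul_entry hpq hps hqs g j j
    rw [if_pos rfl, show (g : Matrix (Fin 3) (Fin 3) F) p j = 0 from hp] at h
    simp only [G, Gi]
    linear_combination h
  set X := G q j * Gi j q
  set Y := G s j * Gi j s
  have hX : X ≠ 0 := mul_ne_zero hq fun h => hq (hN.pattern' hg j q h)
  have hY : Y ≠ 0 := mul_ne_zero hs fun h => hs (hN.pattern' hg j s h)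
  set σ := -Y / X
  have hσ : σ ≠ 0 := div_ne_zero (neg_ne_zero.mpr hY) hX
  let d : Fin 3 → F := fun i => if i = p then σ⁻¹ else if i = q then σ else 1
  obtain ⟨D, hD, hDv, hDi⟩ := diag_mem' hN.mon hpq hps hqs d (by
    simp [d, hpq.symm, hps.symm, hqs.symm, hσ])
  have hkj : ∀ f : Fin 3 → F, (Gi * diagonal f * G) j j = f q * X + f s * Y := fun f => by
    rw [Matrix.mul_apply, sum3 hpq hps hqs, Matrix.mul_diagonal, Matrix.mul_diagonal, Matrix.mul_diagonal, hp]
    ring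
  have hk : ((g⁻¹ * D * g : GL (Fin 3) F) : Matrix (Fin 3) (Fin 3) F) j j = 0 := by
    rw [Units.val_mul, Units.val_mul, hDv, hkj]
    simp [d, hpq.symm, hps.symm, hqs.symm, σ, div_mul_cancel₀ _ hX]
  have h2 := hN.pattern (M.mul_mem (M.mul_mem (M.inv_mem hg) hD) hg) j j hk
  rw [show (g⁻¹ * D * g)⁻¹ = g⁻¹ * D⁻¹ * g by group, Units.val_mul, Units.val_mul, hDi, hkj] at h2
  simp [d, hpq.symm, hps.symm, hqs.symm, σ] at h2
  field_simp at h2
  have hsq : (Y - X) * (Y + X) = 0 := by linear_combination h2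
  rw [mul_eq_zero, sub_eq_zero] at hsq
  exact (hsq.resolve_right fun h => one_ne_zero (α := F) (by linear_combination h - hsum)).symm

/-- The monomial involution fixing a vector with two non-zero coordinates and negating modulo it. -/
theorem swap_mem (hM : ContainsMon M) {p q s : Fin 3} (hpq : p ≠ q) (hps : p ≠ s) (hqs : q ≠ s) {a b : F}
    (ha : a ≠ 0) (hb : b ≠ 0) :
    ∃ R ∈ M, R * R = 1 ∧ ∀ v, ((R : Matrix (Fin 3) (Fin 3) F) *ᵥ v) p = -v p ∧
      ((R : Matrix (Fin 3) (Fin 3) F) *ᵥ v) q = a / b * v s ∧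
      ((R : Matrix (Fin 3) (Fin 3) F) *ᵥ v) s = b / a * v q := by
  classical
  let d : Fin 3 → Fˣ := fun i => if i = p then -1 else if i = q then Units.mk0 (b / a) (div_ne_zero hb ha)
    else Units.mk0 (a / b) (div_ne_zero ha hb)
  have hdet : ((Equiv.Perm.sign (Equiv.swap q s) : ℤ) : F) * ∏ i, (d i : F) = 1 := by
    rw [Equiv.Perm.sign_swap hqs]
    rw [show (Finset.univ : Finset (Fin 3)) = {p, q, s} from (Finset.eq_univ_of_forall fun l => by
      simpa using tri p q s l hpq hps hqs).symm]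
    rw [Finset.prod_insert (by simp [hpq, hps]), Finset.prod_insert (by simp [hqs]), Finset.prod_singleton]
    simp [d, hpq.symm, hps.symm, hqs.symm]
    field_simp
  refine ⟨monGL (Equiv.swap q s) d, hM _ _ hdet, ?_, fun v => ?_⟩
  · refine Units.ext (Matrix.ext_of_mulVec_single fun k => funext fun l => ?_)
    rw [Units.val_mul, ← mulVec_mulVec, monGL_coe, monMat_mulVec, monMat_mulVec, Units.val_one, one_mulVec]
    rcases tri p q s l hpq hps hqs with rfl | rfl | rfl <;>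
      simp [d, Equiv.swap_apply_of_ne_of_ne, hpq, hps, hpq.symm, hps.symm, hqs.symm] <;> field_simp
  · refine ⟨?_, ?_, ?_⟩ <;> rw [monGL_coe, monMat_mulVec] <;>
      simp [d, Equiv.swap_apply_of_ne_of_ne, hpq, hps, hpq.symm, hps.symm, hqs.symm]

/-- A transvection with centre on a coordinate line but at no vertex swaps that line, in characteristic two. -/
theorem NoRoot.centre_two (hN : NoRoot M) {S : GL (Fin 3) F} (hS : S ∈ M) {p q s : Fin 3} (hpq : p ≠ q)
    (hps : p ≠ s) (hqs : q ≠ s) {x ψ : Fin 3 → F} (hxp : x p = 0) (hxq : x q ≠ 0) (hxs : x s ≠ 0)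
    (hψx : ψ ⬝ᵥ x = 0) (hψ : ψ ≠ 0)
    (hSv : ∀ v, (S : Matrix (Fin 3) (Fin 3) F) *ᵥ v = v + (ψ ⬝ᵥ v) • x) :
    (2 : F) = 0 ∧ (S : Matrix (Fin 3) (Fin 3) F) q q = 0 ∧
      (S : Matrix (Fin 3) (Fin 3) F) q s = x q / x s ∧ (S : Matrix (Fin 3) (Fin 3) F) s s = 0 := by
  classical
  have hent : ∀ k l, (S : Matrix (Fin 3) (Fin 3) F) k l = (1 : Matrix (Fin 3) (Fin 3) F) k l + ψ l * x k := by
    intro k l
    have h := congrFun (hSv (Pi.single l 1)) k
    rw [mulVec_single_one, dotProduct_single, mul_one, Pi.add_apply, Pi.smul_apply, smul_eq_mul] at h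
    rw [show (1 : Matrix (Fin 3) (Fin 3) F) k l = (Pi.single l 1 : Fin 3 → F) k by
      simp [Matrix.one_apply, Pi.single_apply]]
    exact h
  have hψp : ψ p = 0 := by
    have h := hN.col_of_row hS (p := p) (fun k hk => by rw [hent, hxp, one_apply_ne hk.symm]; ring) q hpq.symm
    rw [hent, one_apply_ne hpq.symm, zero_add] at h
    exact (mul_eq_zero.mp h).resolve_right hxq
  -- `x` is not a multiple of a column of an element
  have hnot : ∀ h ∈ M, ∀ i, (h : Matrix (Fin 3) (Fin 3) F) p i = 0 →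
      (h : Matrix (Fin 3) (Fin 3) F) q i ≠ 0 → (h : Matrix (Fin 3) (Fin 3) F) s i ≠ 0 → False := by
    intro h hh i hp hq hs
    set σ := x q / x s * ((h : Matrix (Fin 3) (Fin 3) F) s i / (h : Matrix (Fin 3) (Fin 3) F) q i)
    have hσ : σ ≠ 0 := mul_ne_zero (div_ne_zero hxq hxs) (div_ne_zero hs hq)
    obtain ⟨D, hD, hDv, -⟩ := diag_mem' hN.mon hpq hps hqs (fun l => if l = p then σ⁻¹ else if l = q then σ else 1)
      (by simp [hpq.symm, hps.symm, hqs.symm, hσ])
    set k := (h : Matrix (Fin 3) (Fin 3) F) s i / x s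
    have hk : k ≠ 0 := div_ne_zero hs hxs
    have hcol : ((D * h : GL (Fin 3) F) : Matrix (Fin 3) (Fin 3) F) *ᵥ Pi.single i 1 = k • x := by
      funext l
      rw [mulVec_single_one, Matrix.col_apply, Units.val_mul, hDv, Matrix.diagonal_mul, Pi.smul_apply, smul_eq_mul]
      rcases tri p q s l hpq hps hqs with rfl | rfl | rfl
      · simp [hp, hxp]
      · simp [hpq.symm, σ, k]; field_simp
      · simp [hps.symm, hqs.symm, k]; field_simp
    obtain ⟨w, hw⟩ : ∃ w, w = D * h := ⟨_, rfl⟩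
    rw [← hw] at hcol
    have hhas : Has M x ψ := ⟨S, hS, Matrix.ext fun a b => by
      rw [hent, Matrix.add_apply, vecMulVec_apply]; ring⟩
    have h1 := hhas.conj (M.inv_mem (hw ▸ M.mul_mem hD hh : w ∈ M))
    rw [inv_inv] at h1
    have hx' : ((w⁻¹ : GL (Fin 3) F) : Matrix (Fin 3) (Fin 3) F) *ᵥ x = k⁻¹ • Pi.single i 1 := by
      have : x = k⁻¹ • ((w : Matrix (Fin 3) (Fin 3) F) *ᵥ Pi.single i 1) := by
        rw [hcol, smul_smul, inv_mul_cancel₀ hk, one_smul]
      rw [this, mulVec_smul, mulVec_mulVec, Units.inv_mul, one_mulVec]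
    have h2 := (Has.shift _).1 (h1.congr hx' rfl)
    have h3 := hN.no_row h2 (by
      have e := congrArg (fun z => ψ ⬝ᵥ z) hcol
      simp only [dotProduct_mulVec, dotProduct_single, mul_one, dotProduct_smul, hψx, smul_zero] at e
      rw [Pi.smul_apply, e, smul_zero])
    refine hψ ?_
    rw [smul_eq_zero, inv_eq_zero] at h3
    have h4 := congrArg (fun z => z ᵥ* ((w⁻¹ : GL (Fin 3) F) : Matrix (Fin 3) (Fin 3) F)) (h3.resolve_left hk)
    simp only [vecMul_vecMul, zero_vecMul, Units.mul_inv, vecMul_one] at h4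
    exact h4
  have hψs : ψ q * x q + ψ s * x s = 0 := by
    rw [← hψx, dotProduct, sum3 hpq hps hqs, hψp]; ring
  have hψq : ψ q ≠ 0 := fun h0 => hψ (funext fun l => by
    rcases tri p q s l hpq hps hqs with rfl | rfl | rfl
    · exact hψp
    · exact h0
    · rw [h0, zero_mul, zero_add] at hψs
      exact (mul_eq_zero.mp hψs).resolve_right hxs)
  have e1 : 1 + ψ q * x q = 0 := by
    by_contra h0
    exact hnot S hS q (by rw [hent, hxp, one_apply_ne hpq]; ring) (by rw [hent, one_apply_eq]; exact h0)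
      (by rw [hent, one_apply_ne hqs.symm, zero_add]; exact mul_ne_zero hψq hxs)
  have hψs' : ψ s * x s = 1 := by linear_combination hψs - e1
  have h2 : (2 : F) = 0 := by
    by_contra h0
    exact hnot S hS s (by rw [hent, hxp, one_apply_ne hps]; ring)
      (by rw [hent, one_apply_ne hqs, zero_add]; exact mul_ne_zero (left_ne_zero_of_mul_eq_one hψs') hxq)
      (by rw [hent, one_apply_eq, hψs', one_add_one_eq_two]; exact h0)
  refine ⟨h2, by rw [hent, one_apply_eq, e1], ?_, by rw [hent, one_apply_eq, hψs', one_add_one_eq_two, h2]⟩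
  rw [hent, one_apply_ne hqs, zero_add, eq_div_iff hxs]
  linear_combination x q * hψs'

/-- The products agree on a full support. -/
theorem NoRoot.rule_three (hN : NoRoot M) {g : GL (Fin 3) F} (hg : g ∈ M) {p q s : Fin 3} (hpq : p ≠ q)
    (hps : p ≠ s) (hqs : q ≠ s) {j : Fin 3} (ha : ∀ k, (g : Matrix (Fin 3) (Fin 3) F) k j ≠ 0) :
    (g : Matrix (Fin 3) (Fin 3) F) q j * ((g⁻¹ : GL (Fin 3) F) : Matrix (Fin 3) (Fin 3) F) j q =
      (g : Matrix (Fin 3) (Fin 3) F) s j * ((g⁻¹ : GL (Fin 3) F) : Matrix (Fin 3) (Fin 3) F) j s := by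
  classical
  set G := (g : Matrix (Fin 3) (Fin 3) F)
  set Gi := ((g⁻¹ : GL (Fin 3) F) : Matrix (Fin 3) (Fin 3) F)
  have hα : ∀ k, Gi j k ≠ 0 := fun k h => ha k (hN.pattern' hg j k h)
  let x : Fin 3 → F := fun k => if k = q then Gi j s else if k = s then -Gi j q else 0
  have hxp : x p = 0 := by simp [x, hpq, hps]
  have hxq : x q = Gi j s := by simp [x]
  have hxs : x s = -Gi j q := by simp [x, hqs.symm]
  have hxq0 : x q ≠ 0 := by rw [hxq]; exact hα s
  have hxs0 : x s ≠ 0 := by rw [hxs]; exact neg_ne_zero.mpr (hα q)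
  set b := Gi *ᵥ x with hb
  have hGb : G *ᵥ b = x := by rw [hb, mulVec_mulVec, Units.mul_inv, one_mulVec]
  have hbj : b j = 0 := by
    rw [hb, mulVec3 hpq hps hqs, hxp, hxq, hxs]; ring
  obtain ⟨u, u', hju, hju', huu'⟩ := exists_others j
  -- a support of size two is a column
  have hcol : ∀ k l, j ≠ k → j ≠ l → k ≠ l → b k = 0 → G q j * Gi j q = G s j * Gi j s := by
    intro k l hjk hjl hkl hk0
    have hx : ∀ m, x m = G m l * b l := fun m => by
      rw [← hGb, mulVec3 hjk hjl hkl, hbj, hk0]; ring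
    have hl0 : b l ≠ 0 := fun h => hxq0 (by rw [hx, h, mul_zero])
    have hp' : G p l = 0 := (mul_eq_zero.mp ((hx p).symm.trans hxp)).resolve_right hl0
    have hq' : G q l ≠ 0 := fun h => hxq0 (by rw [hx, h, zero_mul])
    have hs' : G s l ≠ 0 := fun h => hxs0 (by rw [hx, h, zero_mul])
    have h2 := hN.rule_two hg hpq hps hqs hp' hq' hs'
    have h0 := inv_mul_entry hpq hps hqs g l j
    rw [if_neg hjl.symm, hN.pattern hg l p hp', zero_mul, zero_add] at h0
    have e1 : Gi l q * Gi j s = Gi l s * -Gi j q := by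
      rw [← hxq, ← hxs, hx, hx]
      linear_combination b l * h2
    have hls : Gi l s ≠ 0 := fun h => hs' (hN.pattern' hg l s h)
    refine mul_left_cancel₀ hls ?_
    linear_combination G q j * e1 - Gi j s * h0
  by_cases hu : b u = 0
  · exact hcol u u' hju hju' huu' hu
  by_cases hu' : b u' = 0
  · exact hcol u' u hju' hju huu'.symm hu'
  obtain ⟨R, hR, hRR, hRv⟩ := swap_mem hN.mon hpq hps hqs hxq0 hxs0
  obtain ⟨R₀, hR₀, hR₀R, hR₀v⟩ := swap_mem hN.mon hju hju' huu' hu hu'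
  set R' := g * R₀ * g⁻¹ with hR'
  have hR'M : R' ∈ M := M.mul_mem (M.mul_mem hg hR₀) (M.inv_mem hg)
  have hRx : (R : Matrix (Fin 3) (Fin 3) F) *ᵥ x = x := funext fun l => by
    obtain ⟨e1, e2, e3⟩ := hRv x
    rcases tri p q s l hpq hps hqs with rfl | rfl | rfl
    · rw [e1, hxp, neg_zero]
    · rw [e2, div_mul_cancel₀ _ hxs0]
    · rw [e3, div_mul_cancel₀ _ hxq0]
  have hRmod : ∀ v, ∃ c : F, (R : Matrix (Fin 3) (Fin 3) F) *ᵥ v = -v + c • x := fun v => by
    refine ⟨v s / x s + v q / x q, funext fun l => ?_⟩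
    obtain ⟨e1, e2, e3⟩ := hRv v
    rw [Pi.add_apply, Pi.neg_apply, Pi.smul_apply, smul_eq_mul]
    rcases tri p q s l hpq hps hqs with rfl | rfl | rfl
    · rw [e1, hxp]; ring
    · rw [e2]; field_simp; ring
    · rw [e3]; field_simp; ring
  have hR'app : ∀ v, (R' : Matrix (Fin 3) (Fin 3) F) *ᵥ (G *ᵥ v) = G *ᵥ ((R₀ : Matrix (Fin 3) (Fin 3) F) *ᵥ v) :=
    fun v => by simp only [hR', G, Units.val_mul, ← mulVec_mulVec, Cfsg.Agent.H98.gl_inv_mulVec]
  have hR'x : (R' : Matrix (Fin 3) (Fin 3) F) *ᵥ x = x := by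
    have hb0 : (R₀ : Matrix (Fin 3) (Fin 3) F) *ᵥ b = b := funext fun l => by
      obtain ⟨e1, e2, e3⟩ := hR₀v b
      rcases tri j u u' l hju hju' huu' with rfl | rfl | rfl
      · rw [e1, hbj, neg_zero]
      · rw [e2, div_mul_cancel₀ _ hu']
      · rw [e3, div_mul_cancel₀ _ hu]
    rw [← hGb, hR'app, hb0]
  have hR'mod : ∀ v, ∃ c : F, (R' : Matrix (Fin 3) (Fin 3) F) *ᵥ v = -v + c • x := fun v => by
    set w := Gi *ᵥ v
    refine ⟨w u' / b u' + w u / b u, ?_⟩
    have hw : (R₀ : Matrix (Fin 3) (Fin 3) F) *ᵥ w = -w + (w u' / b u' + w u / b u) • b := funext fun l => by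
      obtain ⟨e1, e2, e3⟩ := hR₀v w
      rw [Pi.add_apply, Pi.neg_apply, Pi.smul_apply, smul_eq_mul]
      rcases tri j u u' l hju hju' huu' with rfl | rfl | rfl
      · rw [e1, hbj]; ring
      · rw [e2]; field_simp; ring
      · rw [e3]; field_simp; ring
    have hGw : G *ᵥ w = v := by rw [mulVec_mulVec, Units.mul_inv, one_mulVec]
    rw [← hGw, hR'app, hw, mulVec_add, mulVec_neg, mulVec_smul, hGb, hGw]
  -- an element congruent to the identity modulo `x` and fixing it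
  have hform : ∀ S : GL (Fin 3) F, (∀ v, ∃ c : F, (S : Matrix (Fin 3) (Fin 3) F) *ᵥ v = v + c • x) →
      (S : Matrix (Fin 3) (Fin 3) F) *ᵥ x = x → S ≠ 1 →
      ∃ ψ : Fin 3 → F, ψ ⬝ᵥ x = 0 ∧ ψ ≠ 0 ∧ ∀ v, (S : Matrix (Fin 3) (Fin 3) F) *ᵥ v = v + (ψ ⬝ᵥ v) • x := by
    intro S hSv hSx hS1
    let ψ : Fin 3 → F := fun k => ((S : Matrix (Fin 3) (Fin 3) F) q k - (1 : Matrix (Fin 3) (Fin 3) F) q k) / x q
    have hψ : ∀ v, ψ ⬝ᵥ v = (((S : Matrix (Fin 3) (Fin 3) F) *ᵥ v) q - v q) / x q := fun v => by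
      rw [show v q = ((1 : Matrix (Fin 3) (Fin 3) F) *ᵥ v) q by rw [one_mulVec]]
      simp only [ψ, dotProduct, mulVec, ← Finset.sum_sub_distrib, Finset.sum_div]
      exact Finset.sum_congr rfl fun k _ => by ring
    have hall : ∀ v, (S : Matrix (Fin 3) (Fin 3) F) *ᵥ v = v + (ψ ⬝ᵥ v) • x := fun v => by
      obtain ⟨c, hc⟩ := hSv v
      rw [hc, hψ, hc, Pi.add_apply, Pi.smul_apply, smul_eq_mul, add_sub_cancel_left, mul_div_cancel_right₀ _ hxq0]
    refine ⟨ψ, by rw [hψ, hSx, sub_self, zero_div], fun h0 => hS1 ?_, hall⟩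
    exact Cfsg.Agent.H98.gl_ext fun v => by rw [hall, h0, zero_dotProduct, zero_smul, add_zero, Units.val_one, one_mulVec]
  by_cases hT : R' * R = 1
  · have hRR' : R = R' := by
      calc R = (R' * R') * R := by
            rw [hR', show g * R₀ * g⁻¹ * (g * R₀ * g⁻¹) = g * (R₀ * R₀) * g⁻¹ by group, hR₀R]; simp
        _ = R' := by rw [mul_assoc, hT, mul_one]
    have hneg : (R₀ : Matrix (Fin 3) (Fin 3) F) *ᵥ Pi.single j 1 = -Pi.single j 1 := funext fun l => by
      obtain ⟨e1, e2, e3⟩ := hR₀v (Pi.single j 1)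
      rw [Pi.neg_apply]
      rcases tri j u u' l hju hju' huu' with rfl | rfl | rfl
      · exact e1
      · rw [e2, Pi.single_eq_of_ne hju'.symm, Pi.single_eq_of_ne hju.symm]; ring
      · rw [e3, Pi.single_eq_of_ne hju'.symm, Pi.single_eq_of_ne hju.symm]; ring
    obtain ⟨-, e2, -⟩ := hRv (G *ᵥ Pi.single j 1)
    rw [hRR', hR'app, hneg, mulVec_neg, mulVec_single_one, hxq, hxs] at e2
    simp only [Pi.neg_apply, Matrix.col_apply] at e2
    field_simp [hα q] at e2
    linear_combination (-1 : F) * e2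
  · exfalso
    obtain ⟨ψ, hψx, hψ0, hTv⟩ := hform (R' * R) (fun v => by
      obtain ⟨c, hc⟩ := hRmod v
      obtain ⟨c', hc'⟩ := hR'mod v
      refine ⟨c - c', ?_⟩
      rw [Units.val_mul, ← mulVec_mulVec, hc, mulVec_add, mulVec_neg, mulVec_smul, hc', hR'x]
      module) (by rw [Units.val_mul, ← mulVec_mulVec, hRx, hR'x]) hT
    obtain ⟨h2, hTqq, -, -⟩ := hN.centre_two (M.mul_mem hR'M hR) hpq hps hqs hxp hxq0 hxs0 hψx hψ0 hTv
    obtain ⟨ψ', hψ'x, hψ'0, hR'v⟩ := hform R' (fun v => by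
      obtain ⟨c, hc⟩ := hR'mod v
      have e : ∀ w : Fin 3 → F, -w = w := fun w => by
        have : (2 : F) • w = 0 := by rw [h2, zero_smul]
        rw [two_smul] at this
        exact neg_eq_of_add_eq_zero_left this
      exact ⟨c, by rw [hc, e]⟩) hR'x (fun h1 => by
        have h0 := congrFun (hR'app (Pi.single u 1)) 0
        have h3 : ∀ k, G *ᵥ ((R₀ : Matrix (Fin 3) (Fin 3) F) *ᵥ Pi.single k 1) = G *ᵥ Pi.single k 1 := fun k => by
          rw [← hR'app, h1, Units.val_one, one_mulVec]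
        have h4 := congrFun (Cfsg.Agent.H98.gl_mulVec_injective g (h3 u)) u
        rw [(hR₀v _).2.1, Pi.single_eq_of_ne huu'.symm, mul_zero, Pi.single_eq_same] at h4
        exact zero_ne_one h4)
    obtain ⟨-, -, hR'qs, -⟩ := hN.centre_two hR'M hpq hps hqs hxp hxq0 hxs0 hψ'x hψ'0 hR'v
    obtain ⟨e1, e2, e3⟩ := hRv (Pi.single q 1)
    have e : ((R' * R : GL (Fin 3) F) : Matrix (Fin 3) (Fin 3) F) q q =
        (((R' * R : GL (Fin 3) F) : Matrix (Fin 3) (Fin 3) F) *ᵥ Pi.single q 1) q := by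
      rw [mulVec_single_one, Matrix.col_apply]
    rw [hTqq, Units.val_mul, ← mulVec_mulVec, mulVec3 hpq hps hqs, e1, e2, e3, hR'qs, Pi.single_eq_of_ne hpq,
      Pi.single_eq_of_ne hqs.symm, Pi.single_eq_same, mul_zero, neg_zero, mul_zero, mul_zero, zero_add, zero_add,
      mul_one, div_mul_div_comm, mul_comm (x s) (x q), div_self (mul_ne_zero hxq0 hxs0)] at e
    exact zero_ne_one e

end Cfsg.Agent.H60.SLThree
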