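import Cfsg.Agent.H1.DecompMax
import Cfsg.Agent.H60.SLThree.MonoRules

/-!
The stabiliser of three independent lines is maximal in the three dimensional special linear group over at least
five scalars.
-/

set_option autoImplicit false
set_option linter.unusedSectionVars false
set_option linter.style.haveILetI false

namespace Cfsg.Agent.H60.SLThree

open Matrix Cfsg.Agent.H1.Decomp

variable {F : Type*} [Field F] [Fintype F] {M : Subgroup (GL (Fin 3) F)}

/-- A scalar whose cube is neither one, nor a primitive cube root of one, nor minus one half. -/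
theorem exists_good (hq : 5 ≤ Fintype.card F) :
    ∃ μ : F, μ ≠ 0 ∧ μ ^ 3 ≠ 1 ∧ 1 + 2 * μ ^ 3 ≠ 0 ∧ μ ^ 6 + μ ^ 3 + 1 ≠ 0 := by
  classical
  by_cases h2 : (2 : F) = 0
  · by_contra hc
    push Not at hc
    have h9 : ∀ x : Fˣ, x ^ 9 = 1 := fun x => Units.ext (by
      push_cast
      by_cases h3 : (x : F) ^ 3 = 1
      · linear_combination ((x : F) ^ 6 + (x : F) ^ 3 + 1) * h3
      · have := hc x x.ne_zero h3 (by rw [h2, zero_mul, add_zero]; exact one_ne_zero)
        linear_combination ((x : F) ^ 3 - 1) * this)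
    obtain ⟨x, hx⟩ := IsCyclic.exists_generator (α := Fˣ)
    have hord : Fintype.card F - 1 ∣ 9 := by
      rw [← Fintype.card_units, ← Nat.card_eq_fintype_card, ← orderOf_eq_card_of_forall_mem_zpowers hx]
      exact orderOf_dvd_of_pow_eq_one (h9 x)
    haveI : CharP F 2 := CharTwo.of_one_ne_zero_of_two_eq_zero one_ne_zero h2
    obtain ⟨n, hp, hn⟩ := FiniteField.card F 2
    have hle := Nat.le_of_dvd (by norm_num) hord
    have hn4 : (n : ℕ) < 4 := by
      by_contra h
      have := Nat.pow_le_pow_right (n := 2) (by norm_num) (not_lt.mp h)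
      omega
    interval_cases h : (n : ℕ) <;> simp [hn] at hord hq
  · refine ⟨-1, by simp, fun h => h2 (by linear_combination -h), fun h => ?_, fun h => ?_⟩
    · exact one_ne_zero (α := F) (by linear_combination -h)
    · exact one_ne_zero (α := F) (by linear_combination h)

/-- The monomial group and a non-monomial element give a root element. -/
theorem root_of_nonmonomial_three (hq5 : 5 ≤ Fintype.card F) (hM : ContainsMon M) {g : GL (Fin 3) F} (hg : g ∈ M)
    (hgm : ¬ IsMono (g : Matrix (Fin 3) (Fin 3) F)) : HasRoot M := by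
  classical
  by_contra hno
  obtain ⟨μ, hμ, hμ3, hν2, hνω⟩ := exists_good hq5
  have hN : NoRoot M := ⟨hM, hno, μ, hμ, hμ3⟩
  -- a column of full support
  obtain ⟨h, hh, j, hfull⟩ : ∃ h ∈ M, ∃ j, ∀ k, (h : Matrix (Fin 3) (Fin 3) F) k j ≠ 0 := by
    unfold IsMono at hgm
    push Not at hgm
    obtain ⟨j, q, s, hq, hs, hqs⟩ := hgm
    by_contra hc
    push Not at hc
    obtain ⟨p, hp⟩ := hc g hg j
    have hpq : p ≠ q := fun e => hq (e ▸ hp)
    have hps : p ≠ s := fun e => hs (e ▸ hp)
    set Gi := ((g⁻¹ : GL (Fin 3) F) : Matrix (Fin 3) (Fin 3) F)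
    have hγq : Gi j q ≠ 0 := fun e => hq (hN.pattern' hg j q e)
    have hγs : Gi j s ≠ 0 := fun e => hs (hN.pattern' hg j s e)
    let v : Fin 3 → F := fun k => if k = p then 1 else if k = q then Gi j s else -Gi j q
    have hv : ∀ k, v k ≠ 0 := fun k => by
      simp only [v]
      split_ifs
      · exact one_ne_zero
      · exact hγs
      · exact neg_ne_zero.mpr hγq
    obtain ⟨b, hb⟩ : ∃ b, b = Gi *ᵥ v := ⟨_, rfl⟩
    have hgb : (g : Matrix (Fin 3) (Fin 3) F) *ᵥ b = v := by
      rw [hb, mulVec_mulVec, Units.mul_inv, one_mulVec]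
    have hbj : b j = 0 := by
      rw [hb, mulVec3 hpq hps hqs, show Gi j p = 0 from hN.pattern hg j p hp]
      simp [v, hpq.symm, hps.symm, hqs.symm]
      ring
    obtain ⟨u, u', hju, hju', huu'⟩ := exists_others j
    have hone : ∀ k l, j ≠ k → j ≠ l → k ≠ l → b k = 0 → False := by
      intro k l hjk hjl hkl hk0
      obtain ⟨m, hm⟩ := hc g hg l
      refine hv m ?_
      rw [← hgb, mulVec3 hjk hjl hkl, hbj, hk0, hm]
      ring
    by_cases hu : b u = 0
    · exact hone u u' hju hju' huu' hu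
    by_cases hu' : b u' = 0
    · exact hone u' u hju' hju huu'.symm hu'
    -- a monomial element sending the column to `b`
    obtain ⟨π, hπq, hπs⟩ : ∃ π : Equiv.Perm (Fin 3), π q = u ∧ π s = u' :=
      (by decide : ∀ q s u u' : Fin 3, q ≠ s → u ≠ u' → ∃ π : Equiv.Perm (Fin 3), π q = u ∧ π s = u') q s u u' hqs huu'
    have hπp : π p = j := by
      rcases tri j u u' (π p) hju hju' huu' with h | h | h
      · exact h
      · exact absurd (π.injective (h.trans hπq.symm)) hpq
      · exact absurd (π.injective (h.trans hπs.symm)) hps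
    obtain ⟨d, hd, hdet⟩ := exists_mon_det_one (F := F) π (fun l => if l = q then
      Units.mk0 (b u / (g : Matrix (Fin 3) (Fin 3) F) q j) (div_ne_zero hu hq) else
      Units.mk0 (b u' / (g : Matrix (Fin 3) (Fin 3) F) s j) (div_ne_zero hu' hs)) p
    have hx : ((g * monGL π d * g : GL (Fin 3) F) : Matrix (Fin 3) (Fin 3) F) *ᵥ Pi.single j 1 = v := by
      rw [Units.val_mul, Units.val_mul, ← mulVec_mulVec, ← mulVec_mulVec, mulVec_single_one]
      refine Eq.trans ?_ hgb
      congr 1
      funext l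
      rw [monGL_coe, monMat_mulVec]
      rcases tri j u u' l hju hju' huu' with rfl | rfl | rfl
      · rw [show π.symm l = p by rw [Equiv.symm_apply_eq, hπp], hbj, Matrix.col_apply, hp, mul_zero]
      · rw [show π.symm l = q by rw [Equiv.symm_apply_eq, hπq], hd q hpq.symm, Matrix.col_apply]
        simp [div_mul_cancel₀ _ hq]
      · rw [show π.symm l = s by rw [Equiv.symm_apply_eq, hπs], hd s hps.symm, Matrix.col_apply]
        simp [hqs.symm, div_mul_cancel₀ _ hs]
    obtain ⟨m, hm⟩ := hc _ (M.mul_mem (M.mul_mem hg (hM π d hdet)) hg) j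
    refine hv m ?_
    rw [← hx, mulVec_single_one, Matrix.col_apply, hm]
  set H := (h : Matrix (Fin 3) (Fin 3) F)
  set Hi := ((h⁻¹ : GL (Fin 3) F) : Matrix (Fin 3) (Fin 3) F)
  -- all products are one third
  have hX : ∀ k, 3 * (H k j * Hi j k) = 1 := fun k => by
    obtain ⟨q, s, hkq, hks, hqs⟩ := exists_others k
    have e1 := hN.rule_three hh hkq.symm hqs hks hfull
    have e2 := hN.rule_three hh hks.symm hqs.symm hkq hfull
    have h0 := inv_mul_entry hkq hks hqs h j j
    rw [if_pos rfl] at h0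
    simp only [H, Hi]
    linear_combination h0 + e1 + e2
  obtain ⟨D, hD, hDv, hDi⟩ := homology_mem hM j hμ
  have hu := conj_homology h j μ _ hDv
  have hui := conj_homology h j μ⁻¹ _ hDi
  set c := μ⁻¹ * μ⁻¹ - μ with hc
  set c' := μ * μ - μ⁻¹ with hc'
  have hc0 : c ≠ 0 := fun e => hμ3 (by
    rw [hc] at e
    field_simp at e
    linear_combination -e)
  have e0 := hX 0
  have h30 : (3 : F) ≠ 0 := left_ne_zero_of_mul_eq_one e0
  have hX' : ∀ k, H k j * Hi j k = 3⁻¹ := fun k => eq_inv_of_mul_eq_one_right (hX k)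
  have hdiag : μ + c * 3⁻¹ ≠ 0 := fun e => hν2 (by
    rw [hc] at e
    field_simp at e
    linear_combination e)
  have hkey := hN.rule_three (M.mul_mem (M.mul_mem hh hD) (M.inv_mem hh)) (p := 2) (q := 0) (s := 1)
    (by decide) (by decide) (by decide) (j := 0) (fun k => by
      rw [Units.val_mul, Units.val_mul, hu]
      by_cases hk : k = 0
      · subst hk; rw [if_pos rfl, hX']; exact hdiag
      · rw [if_neg hk, zero_add]
        exact mul_ne_zero hc0 (mul_ne_zero (hfull k) fun e => hfull 0 (hN.pattern' hh j 0 e)))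
  rw [show (h * D * h⁻¹)⁻¹ = h * D⁻¹ * h⁻¹ by group] at hkey
  simp only [Units.val_mul] at hkey
  rw [hu, hu, hui, hui, if_pos rfl, if_pos rfl, if_neg (by decide), if_neg (by decide), zero_add, zero_add] at hkey
  change (μ + c * (H 0 j * Hi j 0)) * (μ⁻¹ + c' * (H 0 j * Hi j 0)) = c * (H 1 j * Hi j 0) * (c' * (H 0 j * Hi j 1)) at hkey
  rw [hX'] at hkey
  have hkey' : (μ + c * 3⁻¹) * (μ⁻¹ + c' * 3⁻¹) = c * c' * (3⁻¹ * 3⁻¹) := by
    rw [hkey, ← hX' 0]
    conv_rhs => rw [show H 0 j * Hi j 0 * (H 0 j * Hi j 0) = H 0 j * Hi j 0 * 3⁻¹ by rw [hX' 0], ← hX' 1]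
    ring
  rw [hc, hc'] at hkey'
  field_simp at hkey'
  exact hνω (by
    refine mul_left_cancel₀ h30 ?_
    linear_combination hkey')

/-- The coordinate version. -/
theorem sl_le_of_not_blockLike_mono {t : ℕ} (e : Fin 3 ≃ Fin t × Fin 1) (hq : 5 ≤ Fintype.card F)
    (hM : ContainsBlock (fun i => (e i).1) M) {g : GL (Fin 3) F} (hg : g ∈ M)
    (hgB : ¬ BlockLike (fun i => (e i).1) (g : Matrix (Fin 3) (Fin 3) F)) : Cfsg.Geo.specialLinear (Fin 3) F ≤ M := by
  classical
  have hinj : Function.Injective fun i => (e i).1 := fun a b hab =>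
    e.injective (Prod.ext hab (Subsingleton.elim _ _))
  have hpair : ∀ i, ((e i).1, (0 : Fin 1)) = e i := fun i => Prod.ext rfl (Subsingleton.elim _ _)
  have hMon : ContainsMon M := fun π d hd => mon_mem hM π (fun x => (e (π (e.symm (x, 0)))).1)
    (fun i => by rw [hpair, e.symm_apply_apply]) d hd
  have hgm : ¬ IsMono (g : Matrix (Fin 3) (Fin 3) F) := by
    intro hmono
    obtain ⟨π, d, hgd⟩ := exists_monGL_of_isMono hmono
    refine hgB ⟨fun x => (e (π (e.symm (x, 0)))).1, fun k i hk => ?_⟩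
    rw [hgd] at hk
    simp [monMat] at hk
    dsimp only
    rw [hk, hpair, e.symm_apply_apply]
  obtain ⟨i, j, hij, c, hc, h⟩ := root_of_nonmonomial_three hq hMon hg hgm
  exact sl_le_of_roots (roots_of_cross e (by simp) hM (fun he => hij (hinj he)) hc h)

/-- The stabiliser of a decomposition is maximal in `SL`. -/
theorem monomial_maximal_three {t : ℕ} (D : Fin t → Submodule F (Fin 3 → F))
    (hD : Cfsg.Geo.IsMDecomposition 1 D) (hq : 5 ≤ Fintype.card F) :
    Cfsg.Geo.IsMaximalIn (Cfsg.Geo.specialLinear (Fin 3) F)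
      (Cfsg.Geo.decompositionStabilizer D ⊓ Cfsg.Geo.specialLinear (Fin 3) F) := by
  classical
  refine Cfsg.Agent.H98.isMaximalIn_of inf_le_right ?_ fun M hHM hMS g hg hgH => ?_
  · -- a transvection outside
    let a : Fin t := ⟨0, by have := hD.two_le; omega⟩
    let b : Fin t := ⟨1, by have := hD.two_le; omega⟩
    have hab : a ≠ b := by simp [a, b]
    have hne : ∀ c, D c ≠ ⊥ := fun c h => by
      have := hD.finrank_eq c
      rw [h, finrank_bot] at this
      exact hD.pos.ne this
    obtain ⟨w, hw, hw0⟩ := Submodule.exists_mem_ne_zero_of_ne_bot (hne a)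
    obtain ⟨u, hu, hu0⟩ := Submodule.exists_mem_ne_zero_of_ne_bot (hne b)
    have hnot : w ∉ Submodule.span F {u} := by
      intro h
      have hle : Submodule.span F {u} ≤ D b := (Submodule.span_singleton_le_iff_mem _ _).mpr hu
      exact hw0 (Submodule.disjoint_def.mp (hD.indep.pairwiseDisjoint hab) w hw (hle h))
    obtain ⟨φ, hφ, hk⟩ := Cfsg.Agent.H98.exists_functional hnot
    have hφu : φ u = 0 := LinearMap.mem_ker.mp (hk (Submodule.mem_span_singleton_self u))
    refine ⟨Cfsg.Agent.H98.transGL φ u hφu, Cfsg.Agent.H98.transGL_mem_sl φ u hφu, fun h =>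
      Cfsg.Agent.H98.not_stab_of_spread hD hw hab ?_ ?_ h.1⟩
    · rw [Cfsg.Agent.H98.transGL_mulVec, hφ, one_smul, map_add, Cfsg.Agent.H98.comp_same hD hw,
        Cfsg.Agent.H98.comp_other hD hab.symm hu, add_zero]
      exact hw0
    · rw [Cfsg.Agent.H98.transGL_mulVec, hφ, one_smul, map_add, Cfsg.Agent.H98.comp_other hD hab hw,
        Cfsg.Agent.H98.comp_same hD hu, zero_add]
      exact hu0
  obtain ⟨e, P, hP⟩ := exists_adapted hD
  have hdet : ∀ x : GL (Fin 3) F, ((P * x * P⁻¹ : GL (Fin 3) F) : Matrix (Fin 3) (Fin 3) F).det =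
      (x : Matrix (Fin 3) (Fin 3) F).det := by
    intro x
    rw [Units.val_mul, Units.val_mul, det_mul, det_mul, mul_right_comm, ← det_mul, ← Units.val_mul,
      mul_inv_cancel, Units.val_one, det_one, one_mul]
  let M' : Subgroup (GL (Fin 3) F) := M.comap (MulAut.conj P).toMonoidHom
  have hmem : ∀ x, x ∈ M' ↔ P * x * P⁻¹ ∈ M := fun x => Iff.rfl
  have hSL : ∀ x : GL (Fin 3) F, x ∈ Cfsg.Geo.specialLinear (Fin 3) F ↔
      (x : Matrix (Fin 3) (Fin 3) F).det = 1 := by
    intro x
    rw [Cfsg.Geo.specialLinear, MonoidHom.mem_ker, ← Units.val_inj]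
    rfl
  have hM' : ContainsBlock (fun i => (e i).1) M' := fun x hx hxB =>
    hHM ⟨conj_mem_stab_iff hD hP hxB, (hSL _).mpr (by
      change ((P * x * P⁻¹ : GL (Fin 3) F) : Matrix (Fin 3) (Fin 3) F).det = 1
      rw [hdet]; exact hx)⟩
  have hg' : P⁻¹ * g * P ∈ M' := by
    rw [hmem, show P * (P⁻¹ * g * P) * P⁻¹ = g by group]; exact hg
  have hgB : ¬ BlockLike (fun i => (e i).1) ((P⁻¹ * g * P : GL (Fin 3) F) : Matrix (Fin 3) (Fin 3) F) := by
    intro h
    have := conj_mem_stab_iff hD hP h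
    rw [show P * (P⁻¹ * g * P) * P⁻¹ = g by group] at this
    exact hgH ⟨this, hMS hg⟩
  have hle := sl_le_of_not_blockLike_mono e hq hM' hg' hgB
  intro x hx
  have hdx : (P⁻¹ * x * P) ∈ Cfsg.Geo.specialLinear (Fin 3) F := by
    rw [hSL, ← hdet, show P * (P⁻¹ * x * P) * P⁻¹ = x by group]; exact (hSL x).mp hx
  have := (hmem _).mp (hle hdx)
  rwa [show P * (P⁻¹ * x * P) * P⁻¹ = x by group] at this

end Cfsg.Agent.H60.SLThree
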