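import Mathlib.GroupTheory.Coset.Basic
import Mathlib.Tactic
import Mathlib.GroupTheory.Coset.Card
import Mathlib.Data.Fintype.Prod
import Mathlib.Algebra.BigOperators.Group.Finset.Basic

/-!
A counting lemma: a malnormal-modulo-`Z` subgroup containing two involutions not congruent modulo conjugation
cannot be proper when products of involutions pin down `Z` trivially.
-/

set_option autoImplicit false

namespace Cfsg.Agent.H60.SLThree

/-- If `B` meets all its outside conjugates in `Z`, `Z` is central without involutions and `B` has two distinct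
involutions which are not in `Z`, then `B` is everything. -/
theorem eq_top_of_two_involutions {G : Type*} [Group G] [Finite G] (B Z : Subgroup G)
    (hZc : ∀ c ∈ Z, ∀ x : G, c * x = x * c) (hZ2 : ∀ c ∈ Z, c * c = 1 → c = 1)
    (hmal : ∀ g, g ∉ B → ∀ h ∈ B, g * h * g⁻¹ ∈ B → h ∈ Z)
    {e e' : G} (he : e ∈ B) (he' : e' ∈ B) (hee : e * e = 1) (hee' : e' * e' = 1) (hne : e ≠ e')
    (heZ : e ∉ Z) (heZ' : e' ∉ Z) : B = ⊤ := by
  classical
  by_contra hB
  obtain ⟨j, hj⟩ : ∃ j, j ∉ B := by
    by_contra h; push Not at h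
    exact hB (eq_top_iff.mpr fun x _ => h x)
  haveI := Fintype.ofFinite (G ⧸ B)
  let Q := {q : G ⧸ B // q ≠ ((1 : G) : G ⧸ B)}
  have hout : ∀ q : Q, (q.1.out) ∉ B := fun q hq => q.2 (by
    rw [← QuotientGroup.out_eq' q.1, QuotientGroup.eq]
    simpa using B.inv_mem hq)
  let ev : Bool → G := fun b => if b then e else e'
  have hev : ∀ b, ev b ∈ B ∧ ev b * ev b = 1 ∧ ev b ∉ Z := fun b => by
    cases b
    · exact ⟨he', hee', heZ'⟩
    · exact ⟨he, hee, heZ⟩
  let x : Q × Bool → G := fun s => s.1.1.out * ev s.2 * (s.1.1.out)⁻¹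
  have hx2 : ∀ s, x s * x s = 1 := fun s => by
    calc x s * x s = s.1.1.out * (ev s.2 * ev s.2) * (s.1.1.out)⁻¹ := by simp only [x]; group
      _ = 1 := by rw [(hev s.2).2.1]; simp
  have hxB : ∀ s, x s ∉ B := fun s hs => (hev s.2).2.2 (hmal _ (hout s.1) _ (hev s.2).1 hs)
  let f : Q × Bool → Q := fun s => ⟨((x s : G) : G ⧸ B), fun h => hxB s (by
    rw [QuotientGroup.eq] at h
    simpa using B.inv_mem h)⟩
  have hf : Function.Injective f := by
    intro s s' h
    have h' : (x s)⁻¹ * x s' ∈ B := QuotientGroup.eq.mp (congrArg Subtype.val h)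
    have hxi : ∀ s, (x s)⁻¹ = x s := fun s => inv_eq_of_mul_eq_one_right (hx2 s)
    have hc : (x s)⁻¹ * x s' ∈ Z := hmal _ (hxB s) _ h' (by
      have hsq : ∀ a b : G, a⁻¹ = a → b⁻¹ = b → a * (a⁻¹ * b) * a⁻¹ = (a⁻¹ * b)⁻¹ := fun a b ha hb => by
        rw [mul_inv_rev, inv_inv, mul_inv_cancel_left, hb, ha]
      rw [hsq _ _ (hxi s) (hxi s')]; exact B.inv_mem h')
    set c := (x s)⁻¹ * x s' with hcdef
    have hxs : x s' = x s * c := by rw [hcdef, mul_inv_cancel_left]
    have hcc : c * c = 1 := by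
      have hsq : ∀ a b : G, b * a = a * b → a * a = 1 → a * b * (a * b) = 1 → b * b = 1 := fun a b hab ha h => by
        rwa [mul_assoc, ← mul_assoc b a b, hab, mul_assoc, ← mul_assoc a a, ha, one_mul] at h
      refine hsq (x s) c (hZc c hc (x s)) (hx2 s) ?_
      rw [← hxs]; exact hx2 s'
    have heq : x s' = x s := by rw [hxs, hZ2 c hc hcc, mul_one]
    set k := (s'.1.1.out)⁻¹ * s.1.1.out with hk
    have hconj : k * ev s.2 * k⁻¹ = ev s'.2 := by
      calc k * ev s.2 * k⁻¹ = (s'.1.1.out)⁻¹ * x s * s'.1.1.out := by simp only [hk, x]; group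
        _ = ev s'.2 := by rw [← heq]; simp only [x]; group
    have hkB : k ∈ B := by
      by_contra hkB
      exact (hev s.2).2.2 (hmal k hkB _ (hev s.2).1 (by rw [hconj]; exact (hev s'.2).1))
    have hq : s.1 = s'.1 := by
      refine Subtype.ext ?_
      rw [← QuotientGroup.out_eq' s.1.1, ← QuotientGroup.out_eq' s'.1.1, QuotientGroup.eq]
      have := B.inv_mem hkB
      rwa [hk, mul_inv_rev, inv_inv] at this
    have hb : ev s.2 = ev s'.2 := by
      rw [← hconj, hk, hq, inv_mul_cancel, one_mul, inv_one, mul_one]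
    refine Prod.ext hq ?_
    cases h1 : s.2 <;> cases h2 : s'.2 <;> simp only [ev, h1, h2] at hb <;>
      first | rfl | exact absurd hb hne | exact absurd hb.symm hne
  have hcard := Fintype.card_le_of_injective f hf
  rw [Fintype.card_prod, Fintype.card_bool] at hcard
  have hpos : 0 < Fintype.card Q := Fintype.card_pos_iff.mpr ⟨⟨(j : G ⧸ B), fun h => hj (by
    rw [QuotientGroup.eq] at h
    simpa using B.inv_mem h)⟩⟩
  omega

end Cfsg.Agent.H60.SLThree
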