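import Cfsg.Agent.H98.SubfieldFrame

/-!
Transposition composed with inversion on three by three matrices, and the dual of "stabiliser of a rational point"
for overgroups of the subfield subgroup.
-/

set_option autoImplicit false

namespace Cfsg.Agent.H60.SLThree

open Matrix Cfsg.Agent.H98

variable {F : Type*} [Field F]

local notation "G₃" => GL (Fin 3) F
local notation "M₃" => Matrix (Fin 3) (Fin 3) F

/-- Transposition composed with inversion. -/
def transInv : G₃ →* G₃ where
  toFun x := ⟨((x⁻¹ : G₃) : M₃)ᵀ, (x : M₃)ᵀ,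
    by rw [← transpose_mul, ← Units.val_mul, mul_inv_cancel, Units.val_one, transpose_one],
    by rw [← transpose_mul, ← Units.val_mul, inv_mul_cancel, Units.val_one, transpose_one]⟩
  map_one' := Units.ext (by simp)
  map_mul' x y := Units.ext (by simp [_root_.mul_inv_rev, transpose_mul])

theorem transInv_coe (x : G₃) : (transInv x : M₃) = ((x⁻¹ : G₃) : M₃)ᵀ := rfl

theorem transInv_inv_coe (x : G₃) : (((transInv x)⁻¹ : G₃) : M₃) = (x : M₃)ᵀ := rfl

theorem transInv_transInv (x : G₃) : transInv (transInv x) = x := Units.ext (by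
  rw [transInv_coe, transInv_inv_coe, transpose_transpose])

theorem transInv_mem_sl {x : G₃} (hx : x ∈ Cfsg.Geo.specialLinear (Fin 3) F) :
    transInv x ∈ Cfsg.Geo.specialLinear (Fin 3) F := by
  rw [Cfsg.Geo.specialLinear, MonoidHom.mem_ker] at hx ⊢
  refine Units.ext ?_
  change (transInv x : M₃).det = 1
  rw [transInv_coe, det_transpose]
  have h := congrArg Units.val hx
  have h' : (x : M₃).det = 1 := h
  have hm : (x : M₃).det * ((x⁻¹ : G₃) : M₃).det = 1 := by
    rw [← det_mul, ← Units.val_mul, mul_inv_cancel, Units.val_one, det_one]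
  rwa [h', one_mul] at hm

theorem transInv_mem_subGroupF {F₀ : Subfield F} {x : G₃} (hx : x ∈ subGroupF (Fin 3) F₀) :
    transInv x ∈ subGroupF (Fin 3) F₀ := by
  obtain ⟨c, hc, h⟩ := mem_subGroupF.mp ((subGroupF (Fin 3) F₀).inv_mem hx)
  exact mem_subGroupF.mpr ⟨c, hc, fun a b => by rw [transInv_coe, transpose_apply]; exact h b a⟩

theorem isProperOver_dual [Fintype F] {F₀ : Subfield F} {M : Subgroup G₃} (hM : IsProperOver F₀ M) :
    IsProperOver F₀ (M.comap transInv) := by
  refine ⟨fun g hg => hM.le ⟨transInv_mem_subGroupF hg.1, transInv_mem_sl hg.2⟩, fun g hg => ?_,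
    fun h => hM.proper fun g hg => ?_⟩
  · rw [← transInv_transInv g]
    exact transInv_mem_sl (hM.le_sl hg)
  · have := h (transInv_mem_sl hg)
    rwa [Subgroup.mem_comap, transInv_transInv] at this

/-- An element of a proper overgroup stabilising a coordinate plane lies in the subfield subgroup. -/
theorem plane_stab_mem [Fintype F] {F₀ : Subfield F} {r : ℕ} (hr : r.Prime)
    (hcard : Fintype.card F = Nat.card F₀ ^ r) {M : Subgroup G₃} (hM : IsProperOver F₀ M) {y : G₃}
    (hy : y ∈ M) (k : Fin 3) (hrow : ∀ l, l ≠ k → (y : M₃) k l = 0) : y ∈ subGroupF (Fin 3) F₀ := by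
  have h1 : transInv y⁻¹ ∈ subGroupF (Fin 3) F₀ := by
    refine coord_stab_mem (by simp) hr hcard (isProperOver_dual hM) {k} (by simp) (by simp)
      (y := transInv y⁻¹) ?_ ?_
    · rw [Subgroup.mem_comap, transInv_transInv]; exact M.inv_mem hy
    · intro v hv x hx
      rw [Finset.mem_singleton] at hx
      rw [transInv_coe, inv_inv, Matrix.mulVec, dotProduct]
      refine Finset.sum_eq_zero fun l _ => ?_
      by_cases hl : l = k
      · subst hl; rw [transpose_apply, hrow x hx, zero_mul]
      · rw [hv l (by simpa using hl), mul_zero]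
  have h2 := (subGroupF (Fin 3) F₀).inv_mem (transInv_mem_subGroupF h1)
  rwa [transInv_transInv, inv_inv] at h2

end Cfsg.Agent.H60.SLThree
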