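import Cfsg.Agent.H98.MaximalSLSubfield
import Cfsg.Agent.H60.SLThree.Dual
import Mathlib.FieldTheory.Minpoly.Field

/-!
Three by three matrices: fixed rational points of transvections in overgroups of the subfield subgroup, and
rational two by two matrices with an eigenvector of large degree.
-/

set_option autoImplicit false
set_option linter.style.haveILetI false

namespace Cfsg.Agent.H60.SLThree

open Matrix Cfsg.Agent.H98

variable {F : Type*} [Field F] [Fintype F] {F₀ : Subfield F} {r : ℕ}

/-- An element of a proper overgroup fixing the line of a rational vector lies in the subfield subgroup. -/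
theorem point_stab_mem (hr : r.Prime) (hcard : Fintype.card F = Nat.card F₀ ^ r)
    {M : Subgroup (GL (Fin 3) F)} (hM : IsProperOver F₀ M) {y : GL (Fin 3) F} (hy : y ∈ M) {v : Fin 3 → F}
    (hv : v ≠ 0) (hrat : ∀ k, v k ∈ F₀) {c : F} (hyv : (y : Matrix (Fin 3) (Fin 3) F) *ᵥ v = c • v) :
    y ∈ subGroupF (Fin 3) F₀ := by
  classical
  set A : Matrix (Fin 3) (Fin 3) F := vecMulVec v (Pi.single 0 1) with hA
  have happ : ∀ w, A *ᵥ w = w 0 • v := fun w => by
    ext k
    simp [hA, mulVec, dotProduct, vecMulVec_apply, Pi.single_apply, mul_comm]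
  refine rat_stab_mem (by simp) hr hcard hM A (fun a b => ?_) (fun h => ?_) ?_ hy ?_
  · rw [hA, vecMulVec_apply, Pi.single_apply]
    exact mul_mem (hrat a) (by split_ifs <;> first | exact one_mem _ | exact zero_mem _)
  · refine hv ?_
    have := happ (Pi.single 0 1)
    rwa [h, zero_mulVec, Pi.single_eq_same, one_smul, eq_comm] at this
  · have hle : LinearMap.range A.mulVecLin ≤ Submodule.span F {v} := by
      rintro _ ⟨w, rfl⟩
      exact Submodule.mem_span_singleton.mpr ⟨w 0, (happ w).symm⟩
    have := (Submodule.finrank_mono hle).trans (finrank_span_singleton hv).le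
    rw [Fintype.card_fin]; omega
  · rintro _ ⟨w, rfl⟩
    refine ⟨c • w, ?_⟩
    rw [mulVecLin_apply, mulVecLin_apply, happ, happ, mulVec_smul, hyv, Pi.smul_apply, smul_smul, smul_eq_mul,
      mul_comm]

/-- If three elements are independent over the subfield then its index is at least three. -/
theorem three_le_of_indep (hcard : Fintype.card F = Nat.card F₀ ^ r) (ψ : Fin 3 → F)
    (h : ∀ v : Fin 3 → F, (∀ k, v k ∈ F₀) → ψ ⬝ᵥ v = 0 → v = 0) : 3 ≤ Module.finrank F₀ F ∧ Module.finrank F₀ F = r := by
  classical
  haveI := Fintype.ofFinite F₀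
  have h1 := Module.card_eq_pow_finrank (K := F₀) (V := F)
  rw [hcard, Nat.card_eq_fintype_card] at h1
  have hfr : Module.finrank F₀ F = r := (Nat.pow_right_injective (Fintype.one_lt_card (α := F₀)) h1).symm
  have hli : LinearIndependent F₀ ψ := Fintype.linearIndependent_iff.mpr fun a ha => by
    have h0 := h (fun k => (a k : F)) (fun k => (a k).2) (by
      rw [← ha]
      simp [dotProduct, Subfield.smul_def, mul_comm])
    exact fun k => Subtype.ext (congrFun h0 k)
  exact ⟨by simpa using hli.fintype_card_le_finrank, hfr⟩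

/-- A rational two by two matrix with an eigenvector of degree at least three is scalar. -/
theorem scalar_of_eigen (hr : r.Prime) (hfr : Module.finrank F₀ F = r) (hr3 : 3 ≤ r) {t ν a b c d : F}
    (ha : a ∈ F₀) (hb : b ∈ F₀) (hc : c ∈ F₀) (hd : d ∈ F₀) (ht : t ∉ F₀) (h1 : a * t + b = ν * t)
    (h2 : c * t + d = ν) : b = 0 ∧ c = 0 ∧ a = ν ∧ d = ν := by
  have hquad : c * t * t + (d - a) * t - b = 0 := by linear_combination t * h2 - h1
  have hc0 : c = 0 := by
    by_contra hc0
    let P : Polynomial F₀ := Polynomial.C ⟨c, hc⟩ * Polynomial.X ^ 2 +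
      Polynomial.C (⟨d, hd⟩ - ⟨a, ha⟩) * Polynomial.X + Polynomial.C (-⟨b, hb⟩)
    have hPd : P.natDegree = 2 := by
      refine Polynomial.natDegree_quadratic fun h => hc0 ?_
      exact congrArg Subtype.val h
    have hP0 : P ≠ 0 := fun h => by rw [h, Polynomial.natDegree_zero] at hPd; omega
    have hroot : Polynomial.aeval t P = 0 := by
      simp only [P, map_add, map_sub, map_mul, map_pow, map_neg, Polynomial.aeval_C, Polynomial.aeval_X]
      change c * t ^ 2 + (d - a) * t + -b = 0
      linear_combination hquad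
    have hint : IsIntegral F₀ t := Algebra.IsIntegral.isIntegral t
    have hle : (minpoly F₀ t).natDegree ≤ 2 := hPd ▸ Polynomial.natDegree_le_of_dvd (minpoly.dvd _ _ hroot) hP0
    have hdvd : (minpoly F₀ t).natDegree ∣ r := hfr ▸ minpoly.degree_dvd hint
    rcases (Nat.dvd_prime hr).mp hdvd with h | h
    · obtain ⟨s, hs⟩ := minpoly.natDegree_eq_one_iff.mp h
      exact ht (hs ▸ s.2)
    · omega
  subst hc0
  have hdν : d = ν := by linear_combination h2
  have had : a = d := by
    by_contra had
    refine ht ?_
    have : t = b / (d - a) := by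
      rw [eq_div_iff (sub_ne_zero.mpr (Ne.symm had))]
      linear_combination hquad
    rw [this]
    exact div_mem hb (sub_mem hd ha)
  subst hdν
  refine ⟨?_, rfl, had, rfl⟩
  subst had
  linear_combination h1

end Cfsg.Agent.H60.SLThree
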