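import Cfsg.Agent.H60.SLSub.Plane
import Cfsg.Agent.H60.SLThree.Count
import Cfsg.Agent.H60.SLThree.Rational

/-!
Subfield subgroups are maximal in special linear groups of dimension three.

In even characteristic, two rational elations with a common axis through a non-rational fixed point of a
non-rational transvection contradict a count of involutions in the stabiliser of that point.
-/

set_option autoImplicit false
set_option linter.style.haveILetI false

namespace Cfsg.Agent.H60.SLThree

open Matrix Cfsg.Agent.H98 Cfsg.Agent.H60.SLSub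
open scoped MatrixGroups

variable {F : Type*} [Field F] {F₀ : Subfield F}

/-- In even characteristic every transvection of a proper overgroup lies in the subfield subgroup. -/
theorem rational_of_transvection_two [Fintype F] (h2 : (2 : F) = 0) {r : ℕ} (hr : r.Prime)
    (hcard : Fintype.card F = Nat.card F₀ ^ r) {M : Subgroup (GL (Fin 3) F)} (hM : IsProperOver F₀ M)
    {j : GL (Fin 3) F} (hjM : j ∈ M) (ψ b : Fin 3 → F)
    (hjv : ∀ v, (j : Matrix (Fin 3) (Fin 3) F) *ᵥ v = v + (ψ ⬝ᵥ v) • b) : j ∈ subGroupF (Fin 3) F₀ := by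
  classical
  by_contra hj
  have hind : ∀ v : Fin 3 → F, (∀ k, v k ∈ F₀) → ψ ⬝ᵥ v = 0 → v = 0 := fun v hv h0 => by
    by_contra hv0
    exact hj (point_stab_mem hr hcard hM hjM hv0 hv (c := 1) (by rw [hjv, h0, zero_smul, add_zero, one_smul]))
  obtain ⟨h3, hfr⟩ := three_le_of_indep hcard ψ hind
  have hψ : ∀ x, ψ x ≠ 0 := fun x hx => by
    have := hind (Pi.single x 1) (fun k => by
      rw [Pi.single_apply]; split_ifs <;> first | exact one_mem _ | exact zero_mem _) (by simp [hx])
    simpa using congrFun this x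
  have hjent : ∀ s u, (j : Matrix (Fin 3) (Fin 3) F) s u = (Pi.single u 1 : Fin 3 → F) s + ψ u * b s := fun s u => by
    have h := congrFun (hjv (Pi.single u 1)) s
    rw [mulVec_single_one, dotProduct_single, mul_one] at h
    exact h
  have hb : b 1 ≠ 0 := fun hb => hj (plane_stab_mem hr hcard hM hjM 1 fun u hu => by
    rw [hjent, hb, mul_zero, add_zero, Pi.single_eq_of_ne hu.symm])
  set t := -ψ 2 / ψ 0 with ht
  have htF : t ∉ F₀ := fun h => by
    have := hind ![t, 0, 1] (fun k => by
      fin_cases k <;> simp <;> first | exact h | exact zero_mem _ | exact one_mem _) (by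
        simp [dotProduct, Fin.sum_univ_three, ht]
        field_simp [hψ 0]
        ring)
    simpa using congrFun this 2
  let p : Fin 3 → F := ![t, 0, 1]
  have hjp : (j : Matrix (Fin 3) (Fin 3) F) *ᵥ p = p := by
    rw [hjv]
    have : ψ ⬝ᵥ p = 0 := by
      simp [p, dotProduct, Fin.sum_univ_three, ht]
      field_simp [hψ 0]
      ring
    rw [this, zero_smul, add_zero]
  let W : Submodule F (Fin 3 → F) := Submodule.span F {p}
  let L : Submodule F (Fin 3 → F) := LinearMap.ker (LinearMap.proj 1 : (Fin 3 → F) →ₗ[F] F)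
  have hmemL : ∀ v : Fin 3 → F, v ∈ L ↔ v 1 = 0 := fun v => by simp [L]
  let G : Subgroup (GL (Fin 3) F) := M ⊓ Cfsg.Geo.subspaceStabilizer W
  have hGp : ∀ x ∈ G, ∃ ν : F, (x : Matrix (Fin 3) (Fin 3) F) *ᵥ p = ν • p := fun x hx => by
    obtain ⟨ν, hν⟩ := Submodule.mem_span_singleton.mp
      ((mem_subspaceStabilizer.mp hx.2 p).mp (Submodule.mem_span_singleton_self p))
    exact ⟨ν, hν.symm⟩
  have hGof : ∀ x ∈ M, ∀ ν : F, (x : Matrix (Fin 3) (Fin 3) F) *ᵥ p = ν • p → x ∈ G := fun x hx ν hν =>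
    ⟨hx, stab_of_maps_into fun w hw => by
      obtain ⟨c, rfl⟩ := Submodule.mem_span_singleton.mp hw
      rw [mulVec_smul, hν, smul_smul]
      exact Submodule.mem_span_singleton.mpr ⟨_, rfl⟩⟩
  -- elements fixing `p` and the rational line act on the line as a scalar
  have hscal : ∀ x ∈ M, x ∈ Cfsg.Geo.subspaceStabilizer L → ∀ ν : F,
      (x : Matrix (Fin 3) (Fin 3) F) *ᵥ p = ν • p → ∀ v ∈ L, (x : Matrix (Fin 3) (Fin 3) F) *ᵥ v = ν • v := by
    intro x hx hxL ν hν v hv
    have hrow : ∀ u, u ≠ 1 → (x : Matrix (Fin 3) (Fin 3) F) 1 u = 0 := fun u hu => by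
      have := (hmemL _).mp ((mem_subspaceStabilizer.mp hxL (Pi.single u 1)).mp
        ((hmemL _).mpr (Pi.single_eq_of_ne hu.symm _)))
      rwa [mulVec_single_one] at this
    obtain ⟨c, hc, hent⟩ := mem_subGroupF.mp (plane_stab_mem hr hcard hM hx 1 hrow)
    have e0 := congrFun hν 0
    have e2 := congrFun hν 2
    simp [mulVec, dotProduct, Fin.sum_univ_three, p] at e0 e2
    obtain ⟨k02, k20, k00, k22⟩ := scalar_of_eigen hr hfr (hfr ▸ h3) (hent 0 0) (hent 0 2) (hent 2 0) (hent 2 2) htF
      (ν := c * ν) (by linear_combination c * e0) (by linear_combination c * e2)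
    have a02 := (mul_eq_zero.mp k02).resolve_left hc
    have a20 := (mul_eq_zero.mp k20).resolve_left hc
    have a00 := mul_left_cancel₀ hc k00
    have a22 := mul_left_cancel₀ hc k22
    have v1 := (hmemL v).mp hv
    funext s
    fin_cases s <;>
      simp [mulVec, dotProduct, Fin.sum_univ_three, a02, a20, a00, a22, v1, hrow 0 (by decide),
        hrow 2 (by decide)]
  haveI : CharP F 2 := CharTwo.of_one_ne_zero_of_two_eq_zero one_ne_zero h2
  haveI : Finite (GL (Fin 3) F) := inferInstance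
  let B : Subgroup G := (Cfsg.Geo.subspaceStabilizer L).subgroupOf G
  let Z : Subgroup G := (Cfsg.Geo.scalars (Fin 3) F).subgroupOf G
  have hone : ∀ u : Fin 3, u ≠ 1 → ∀ hu : u ≠ 1, elm hu (1 : F) ∈ G ∧
      elm hu (1 : F) ∈ Cfsg.Geo.subspaceStabilizer L := fun u _ hu => by
    refine ⟨hGof _ (hM.le (elm_mem_subGroupF _ (one_mem _))) 1 ?_, stab_of_maps_into fun w hw => ?_⟩
    · rw [elm_mulVec, one_smul]; simp [p]
    · rw [elm_mulVec, (hmemL w).mp hw]; simpa using hw
  have h21 : (2 : Fin 3) ≠ 1 := by decide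
  have h01 : (0 : Fin 3) ≠ 1 := by decide
  obtain ⟨heG, heL⟩ := hone 0 h01 h01
  obtain ⟨heG', heL'⟩ := hone 2 h21 h21
  have hsq : ∀ (u : Fin 3) (hu : u ≠ 1), elm hu (1 : F) * elm hu 1 = 1 := fun u hu => by
    rw [elm_mul, one_add_one_eq_two, h2, elm_zero]
  have hnz : ∀ (u : Fin 3) (hu : u ≠ 1) (hG : elm hu (1 : F) ∈ G), (⟨_, hG⟩ : G) ∉ Z := fun u hu hG h => by
    obtain ⟨c, hc⟩ := (Cfsg.Geo.mem_scalars_iff _).mp (Subgroup.mem_subgroupOf.mp h)
    have := congrFun (congrFun hc u) 1
    rw [elm_apply] at this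
    simp [hu] at this
  have htop : B = ⊤ := by
    refine eq_top_of_two_involutions B Z ?_ ?_ ?_ (e := ⟨_, heG⟩) (e' := ⟨_, heG'⟩)
      (Subgroup.mem_subgroupOf.mpr heL) (Subgroup.mem_subgroupOf.mpr heL') (Subtype.ext (hsq 0 h01))
      (Subtype.ext (hsq 2 h21)) ?_ (hnz 0 h01 heG) (hnz 2 h21 heG')
    · intro c hc x
      obtain ⟨a, ha⟩ := (Cfsg.Geo.mem_scalars_iff _).mp (Subgroup.mem_subgroupOf.mp hc)
      exact Subtype.ext (Units.ext (by simp [ha]))
    · intro c hc hcc
      obtain ⟨a, ha⟩ := (Cfsg.Geo.mem_scalars_iff _).mp (Subgroup.mem_subgroupOf.mp hc)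
      have h := congrFun (congrFun (congrArg (fun w : G => ((w : GL (Fin 3) F) : Matrix (Fin 3) (Fin 3) F)) hcc) 0) 0
      simp [ha] at h
      have ha1 : (a : F) = 1 := by
        have : ((a : F) - 1) * ((a : F) - 1) = 0 := by linear_combination h + (1 - (a : F)) * h2
        exact sub_eq_zero.mp (mul_self_eq_zero.mp this)
      refine Subtype.ext (Units.ext ?_)
      rw [ha, ha1]; simp
    · rintro ⟨g, hg⟩ hgB ⟨h, hh⟩ hhB hconj
      rw [Subgroup.mem_subgroupOf] at hgB hhB hconj
      change g * h * g⁻¹ ∈ _ at hconj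
      obtain ⟨μ, hμ⟩ := hGp g hg
      obtain ⟨ν, hν⟩ := hGp h hh
      have hμ0 : μ ≠ 0 := fun h0 => by
        have := gl_mulVec_injective g (a₁ := p) (a₂ := 0) (by simp [hμ, h0])
        simpa [p] using congrFun this 2
      have hgi : ((g⁻¹ : GL (Fin 3) F) : Matrix (Fin 3) (Fin 3) F) *ᵥ p = μ⁻¹ • p := by
        have h1 := congrArg (fun v => μ⁻¹ • ((g⁻¹ : GL (Fin 3) F) : Matrix (Fin 3) (Fin 3) F) *ᵥ v) hμ
        simp only [gl_inv_mulVec, mulVec_smul, smul_smul, inv_mul_cancel₀ hμ0, one_smul] at h1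
        exact h1.symm
      have hcp : ((g * h * g⁻¹ : GL (Fin 3) F) : Matrix (Fin 3) (Fin 3) F) *ᵥ p = ν • p := by
        rw [Units.val_mul, Units.val_mul, ← mulVec_mulVec, ← mulVec_mulVec, hgi, mulVec_smul, hν, mulVec_smul,
          mulVec_smul, hμ, smul_smul, smul_smul]
        congr 1
        field_simp
      obtain ⟨w, hw, hgw⟩ := exists_moved_out hgB
      have hgw' : ((g : Matrix (Fin 3) (Fin 3) F) *ᵥ w) 1 ≠ 0 := fun h0 => hgw ((hmemL _).mpr h0)
      have hall : ∀ v, ((g * h * g⁻¹ : GL (Fin 3) F) : Matrix (Fin 3) (Fin 3) F) *ᵥ v = ν • v := fun v => by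
        set s := v 1 / ((g : Matrix (Fin 3) (Fin 3) F) *ᵥ w) 1
        set gw := (g : Matrix (Fin 3) (Fin 3) F) *ᵥ w
        have h1 := hscal _ (M.mul_mem (M.mul_mem hg.1 hh.1) (M.inv_mem hg.1)) hconj ν hcp (v - s • gw)
          ((hmemL _).mpr (by
            rw [Pi.sub_apply, Pi.smul_apply, smul_eq_mul]
            simp only [s]
            rw [div_mul_cancel₀ _ hgw', sub_self]))
        have h2 : ((g * h * g⁻¹ : GL (Fin 3) F) : Matrix (Fin 3) (Fin 3) F) *ᵥ gw = ν • gw := by
          simp only [gw, Units.val_mul, ← mulVec_mulVec, gl_inv_mulVec]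
          rw [hscal h hh.1 hhB ν hν w hw, mulVec_smul]
        rw [mulVec_sub, mulVec_smul, h2, smul_sub, smul_comm ν s gw, sub_left_inj] at h1
        exact h1
      have hh1 : ∀ v, (h : Matrix (Fin 3) (Fin 3) F) *ᵥ v = ν • v := fun v => by
        have := hall ((g : Matrix (Fin 3) (Fin 3) F) *ᵥ v)
        simp only [Units.val_mul, ← mulVec_mulVec, gl_inv_mulVec] at this
        rw [← mulVec_smul] at this
        exact gl_mulVec_injective g this
      have hν0 : ν ≠ 0 := fun h0 => by
        have := gl_mulVec_injective h (a₁ := p) (a₂ := 0) (by simp [hν, h0])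
        simpa [p] using congrFun this 2
      refine Subgroup.mem_subgroupOf.mpr ((Cfsg.Geo.mem_scalars_iff _).mpr ⟨Units.mk0 ν hν0, ?_⟩)
      refine Matrix.ext_of_mulVec_single fun u => ?_
      rw [hh1]; ext k; simp [Matrix.one_apply, Pi.single_apply]
    · intro he
      have := congrFun (congrFun (congrArg (fun w : G => ((w : GL (Fin 3) F) : Matrix (Fin 3) (Fin 3) F)) he) 0) 1
      simp [elm_apply] at this
  have hjB : (⟨j, hGof j hjM 1 (by rw [hjp, one_smul])⟩ : G) ∈ B := htop ▸ Subgroup.mem_top _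
  have := (hmemL _).mp ((mem_subspaceStabilizer.mp (Subgroup.mem_subgroupOf.mp hjB) (Pi.single 0 1)).mp
    ((hmemL _).mpr (Pi.single_eq_of_ne (by decide) _)))
  rw [mulVec_single_one, Matrix.col_apply, hjent, Pi.single_eq_of_ne (by decide), zero_add] at this
  exact mul_ne_zero (hψ 0) hb this

/-- The subfield subgroup is maximal in the special linear group of dimension three. -/
theorem sl_subfield_maximal_three [Fintype F] {r : ℕ} (hr : r.Prime)
    (hcard : Fintype.card F = Nat.card F₀ ^ r) :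
    Cfsg.Geo.IsMaximalIn (Cfsg.Geo.specialLinear (Fin 3) F)
      (subGroupF (Fin 3) F₀ ⊓ Cfsg.Geo.specialLinear (Fin 3) F) := by
  classical
  have hn3 : 3 ≤ Fintype.card (Fin 3) := by rw [Fintype.card_fin]
  haveI := Fintype.ofFinite F₀
  have h01 : (0 : Fin 3) ≠ 1 := by decide
  have hstrict : ∃ x ∈ Cfsg.Geo.specialLinear (Fin 3) F,
      x ∉ subGroupF (Fin 3) F₀ ⊓ Cfsg.Geo.specialLinear (Fin 3) F := by
    obtain ⟨c, hc⟩ : ∃ c : F, c ∉ F₀ := by
      by_contra hall; push Not at hall
      have h1 : Fintype.card F ≤ Fintype.card F₀ :=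
        Fintype.card_le_of_injective (fun c => (⟨c, hall c⟩ : F₀)) fun a b h => congrArg Subtype.val h
      rw [hcard, Nat.card_eq_fintype_card] at h1
      have h2 := Nat.pow_lt_pow_right (Fintype.one_lt_card (α := F₀)) hr.one_lt
      rw [pow_one] at h2; omega
    refine ⟨elm h01 c, elm_mem_sl _ _, fun h => hc ?_⟩
    obtain ⟨k, hk, hk'⟩ := mem_subGroupF.mp h.1
    have ha := hk' 0 0
    have hb := hk' 0 1
    simp only [elm_apply, Matrix.one_apply, h01, if_false, and_self, if_true, zero_add, and_false, add_zero,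
      mul_one] at ha hb
    simpa [hk] using mul_mem (inv_mem ha) hb
  refine isMaximalIn_of inf_le_right hstrict fun M h1 h2 g hgM hgH => ?_
  by_contra hcon
  have hM : IsProperOver F₀ M := ⟨h1, h2, hcon⟩
  have hgS : g ∉ subGroupF (Fin 3) F₀ := fun h => hgH ⟨h, h2 hgM⟩
  obtain ⟨l, m, hlm, hj⟩ : ∃ (l m : Fin 3) (hlm : l ≠ m), g * elm hlm (1 : F) * g⁻¹ ∉ subGroupF (Fin 3) F₀ := by
    by_contra hall; push Not at hall
    exact hgS (mem_of_conj_elm hn3 hall)
  set j := g * elm hlm (1 : F) * g⁻¹ with hjdef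
  have hjM : j ∈ M := M.mul_mem (M.mul_mem hgM (h1 (elm_mem_subGroupF _ (one_mem _)))) (M.inv_mem hgM)
  have hjv : ∀ v, (j : Matrix (Fin 3) (Fin 3) F) *ᵥ v =
      v + (((g⁻¹ : GL (Fin 3) F) : Matrix (Fin 3) (Fin 3) F) *ᵥ v) m • ((g : Matrix (Fin 3) (Fin 3) F) *ᵥ Pi.single l 1) :=
    fun v => by
      simp only [hjdef, Units.val_mul, ← Matrix.mulVec_mulVec, elm_mulVec, Matrix.mulVec_add,
        Matrix.mulVec_smul, gl_mulVec_inv, one_mul]
  by_cases h2c : (2 : F) = 0
  · -- even characteristic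
    exact hj (rational_of_transvection_two h2c hr hcard hM hjM
      (fun k => ((g⁻¹ : GL (Fin 3) F) : Matrix (Fin 3) (Fin 3) F) m k)
      ((g : Matrix (Fin 3) (Fin 3) F) *ᵥ Pi.single l 1) hjv)
  · -- odd characteristic
    set φ : Fin 3 → F := fun k => ((g⁻¹ : GL (Fin 3) F) : Matrix (Fin 3) (Fin 3) F) m k with hφ
    set a : Fin 3 → F := fun k => (g : Matrix (Fin 3) (Fin 3) F) k l with ha
    have hφa : φ ⬝ᵥ a = 0 := by
      have h : ((g⁻¹ * g : GL (Fin 3) F) : Matrix (Fin 3) (Fin 3) F) m l = 0 := by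
        rw [inv_mul_cancel, Units.val_one, Matrix.one_apply_ne hlm.symm]
      rwa [Units.val_mul, Matrix.mul_apply] at h
    obtain ⟨x, y, hxy, hx, hy⟩ : ∃ x y, x ≠ y ∧ φ x ≠ 0 ∧ a y ≠ 0 := by
      by_contra hc
      push Not at hc
      obtain ⟨x, hx⟩ : ∃ x, φ x ≠ 0 := by
        by_contra h; push Not at h
        exact Matrix.GeneralLinearGroup.det_ne_zero g⁻¹ (Matrix.det_eq_zero_of_row_eq_zero m h)
      obtain ⟨y, hy⟩ : ∃ y, a y ≠ 0 := by
        by_contra h; push Not at h
        exact Matrix.GeneralLinearGroup.det_ne_zero g (Matrix.det_eq_zero_of_column_eq_zero l h)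
      obtain rfl : x = y := by
        by_contra h; exact hy (hc x y h hx)
      rw [dotProduct, Finset.sum_eq_single x (fun b _ hb => by rw [hc x b (Ne.symm hb) hx, mul_zero])
        (by simp)] at hφa
      exact mul_ne_zero hx hy hφa
    let C : Matrix (Fin 3) (Fin 2) F := Matrix.of fun k i => ![(Pi.single x 1 : Fin 3 → F) k, a k / a y] i
    let R : Matrix (Fin 2) (Fin 3) F := Matrix.of fun i k => ![φ k / φ x, (Pi.single y 1 : Fin 3 → F) k] i
    have hC0 : ∀ k, C k 0 = (Pi.single x 1 : Fin 3 → F) k := fun k => rfl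
    have hC1 : ∀ k, C k 1 = a k / a y := fun k => rfl
    have hR0 : ∀ k, R 0 k = φ k / φ x := fun k => rfl
    have hR1 : ∀ k, R 1 k = (Pi.single y 1 : Fin 3 → F) k := fun k => rfl
    have hRC : R * C = 1 := by
      ext i j
      rw [Matrix.mul_apply]
      fin_cases i <;> fin_cases j
      · simp [hR0, hC0, Pi.single_apply, hx]
      · simp only [Fin.mk_one, Fin.zero_eta, hR0, hC1, div_mul_div_comm, ← Finset.sum_div]
        rw [show ∑ k, φ k * a k = 0 from hφa]
        simp
      · simp [hR1, hC0, Pi.single_apply]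
        exact hxy
      · simp [hR1, hC1, Pi.single_apply, hy]
    have hform : ∀ A : SL(2, F), ∀ p q, (plane C R hRC A : Matrix (Fin 3) (Fin 3) F) p q =
        (1 : Matrix (Fin 3) (Fin 3) F) p q +
          ((C p 0 * ((A : Matrix (Fin 2) (Fin 2) F) - 1) 0 0 + C p 1 * ((A : Matrix (Fin 2) (Fin 2) F) - 1) 1 0) * R 0 q +
          (C p 0 * ((A : Matrix (Fin 2) (Fin 2) F) - 1) 0 1 + C p 1 * ((A : Matrix (Fin 2) (Fin 2) F) - 1) 1 1) * R 1 q) :=
      fun A p q => by
        rw [plane_coe, Matrix.add_apply, Matrix.mul_apply, Fin.sum_univ_two, Matrix.mul_apply, Matrix.mul_apply,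
          Fin.sum_univ_two, Fin.sum_univ_two]
    have ht : plane C R hRC upT = elm hxy (1 : F) := Units.ext <| Matrix.ext fun p q => by
      rw [hform, elm_apply]
      simp [upT_coe, hC0, hR1, Pi.single_apply]
      split_ifs <;> simp_all
    have hjmem : plane C R hRC (loT (a y * φ x)) = j := Units.ext <| Matrix.ext fun p q => by
      have h := congrFun (hjv (Pi.single q 1)) p
      rw [Matrix.mulVec_single_one, Matrix.mulVec_single_one, Matrix.mulVec_single_one] at h
      simp only [Matrix.col_apply, Pi.add_apply, Pi.smul_apply, smul_eq_mul] at h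
      rw [h, hform]
      change _ = _ + φ q * a p
      simp [loT_coe, hC1, hR0, Matrix.one_apply, Pi.single_apply]
      field_simp
    have hcl : Subgroup.closure ({upT, loT (a y * φ x)} : Set SL(2, F)) ≤ M.comap (plane C R hRC) := by
      rw [Subgroup.closure_le]
      rintro _ (rfl | rfl)
      · exact Subgroup.mem_comap.mpr (ht ▸ h1 (elm_mem_subGroupF _ (one_mem _)))
      · exact Subgroup.mem_comap.mpr (hjmem ▸ hjM)
    have hzM : plane C R hRC (-1) ∈ M :=
      Subgroup.mem_comap.mp (hcl (neg_one_mem h2c (mul_ne_zero hy hx)))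
    set z := plane C R hRC (-1) with hz
    have hzentry : ∀ p q, ((z : Matrix (Fin 3) (Fin 3) F) - 1) p q =
        -2 * (C p 0 * R 0 q + C p 1 * R 1 q) := fun p q => by
      rw [Matrix.sub_apply, hz, hform]
      simp [Matrix.SpecialLinearGroup.coe_neg]
      ring
    have hzcomm : ∀ A : SL(2, F), (z : Matrix (Fin 3) (Fin 3) F) * (plane C R hRC A : Matrix (Fin 3) (Fin 3) F) =
        (plane C R hRC A : Matrix (Fin 3) (Fin 3) F) * (z : Matrix (Fin 3) (Fin 3) F) := fun A => by
      rw [hz, ← Units.val_mul, ← Units.val_mul, ← map_mul, ← map_mul, neg_one_mul, mul_neg_one]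
    have hzS : z ∈ subGroupF (Fin 3) F₀ := by
      refine mem_of_commute_rational hn3 hr hcard hM ((elm hxy (1 : F) : Matrix (Fin 3) (Fin 3) F) - 1)
        (fun p q => ?_) (fun h => ?_) ?_ hzM ?_
      · rw [Matrix.sub_apply, elm_apply, Matrix.one_apply]
        simp only [add_sub_cancel_left]
        split_ifs <;> first | exact zero_mem _ | exact one_mem _
      · have := congrFun (congrFun h x) y
        simp [elm_apply, Matrix.one_apply, hxy] at this
      · have hle : LinearMap.range ((elm hxy (1 : F) : Matrix (Fin 3) (Fin 3) F) - 1).mulVecLin ≤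
            Submodule.span F {(Pi.single x 1 : Fin 3 → F)} := by
          rintro _ ⟨v, rfl⟩
          rw [Matrix.mulVecLin_apply, Matrix.sub_mulVec, Matrix.one_mulVec, elm_mulVec, add_sub_cancel_left]
          exact Submodule.mem_span_singleton.mpr ⟨_, rfl⟩
        have h4 := (Submodule.finrank_mono hle).trans (finrank_span_le_card ({Pi.single x 1} : Set (Fin 3 → F)))
        simp only [Set.toFinset_singleton, Finset.card_singleton] at h4
        unfold Matrix.rank
        rw [Fintype.card_fin]; omega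
      · have := hzcomm upT
        rw [ht] at this
        rw [Matrix.mul_sub, Matrix.sub_mul, Matrix.mul_one, Matrix.one_mul, this]
    have hzrat : ∀ p q, ((z : Matrix (Fin 3) (Fin 3) F) - 1) p q ∈ F₀ := by
      obtain ⟨c, hc, hent⟩ := mem_subGroupF.mp hzS
      have hxx : (z : Matrix (Fin 3) (Fin 3) F) x x = -1 := by
        have h := hzentry x x
        rw [Matrix.sub_apply, Matrix.one_apply_eq, hC0, hC1, hR0, hR1, Pi.single_eq_same,
          Pi.single_eq_of_ne hxy, div_self hx] at h
        linear_combination h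
      have hcF : c ∈ F₀ := by
        have := hent x x
        rw [hxx, mul_neg, mul_one] at this
        simpa using neg_mem this
      intro p q
      rw [Matrix.sub_apply]
      refine sub_mem ?_ ?_
      · have := mul_mem (inv_mem hcF) (hent p q)
        rwa [← mul_assoc, inv_mul_cancel₀ hc, one_mul] at this
      · rw [Matrix.one_apply]; split_ifs <;> first | exact one_mem _ | exact zero_mem _
    refine hj (mem_of_commute_rational hn3 hr hcard hM ((z : Matrix (Fin 3) (Fin 3) F) + 1)
      (fun p q => ?_) (fun h => ?_) ?_ hjM ?_)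
    · have e : ((z : Matrix (Fin 3) (Fin 3) F) + 1) p q =
          ((z : Matrix (Fin 3) (Fin 3) F) - 1) p q + 2 * (1 : Matrix (Fin 3) (Fin 3) F) p q := by
        rw [Matrix.sub_apply, Matrix.add_apply]; ring
      rw [e]
      refine add_mem (hzrat p q) (mul_mem ?_ ?_)
      · rw [← one_add_one_eq_two]; exact add_mem (one_mem _) (one_mem _)
      · rw [Matrix.one_apply]; split_ifs <;> first | exact one_mem _ | exact zero_mem _
    · -- `z` is not `-1`
      have hr1 : ((z : Matrix (Fin 3) (Fin 3) F) - 1).rank ≤ 2 := by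
        rw [hz, plane_coe, add_sub_cancel_left, Matrix.mul_assoc]
        refine le_trans (Matrix.rank_mul_le_left _ _) ?_
        exact (Matrix.rank_le_card_width C).trans (by simp)
      have hz' : (z : Matrix (Fin 3) (Fin 3) F) = -1 := eq_neg_of_add_eq_zero_left h
      rw [hz', ← neg_add', Matrix.rank_of_isUnit _ ((Matrix.isUnit_iff_isUnit_det _).mpr ?_), Fintype.card_fin] at hr1
      · omega
      · refine isUnit_iff_ne_zero.mpr ?_
        rw [show -((1 : Matrix (Fin 3) (Fin 3) F) + 1) = (-2 : F) • (1 : Matrix (Fin 3) (Fin 3) F) by module,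
          Matrix.det_smul, Matrix.det_one, mul_one]
        exact pow_ne_zero _ (neg_ne_zero.mpr h2c)
    · have h0 : ((z : Matrix (Fin 3) (Fin 3) F) - 1) * ((z : Matrix (Fin 3) (Fin 3) F) + 1) = 0 := by
        have hzz : z * z = 1 := by rw [hz, ← map_mul]; simp
        have hzz' : (z : Matrix (Fin 3) (Fin 3) F) * (z : Matrix (Fin 3) (Fin 3) F) = 1 := by
          rw [← Units.val_mul, hzz, Units.val_one]
        rw [sub_mul, mul_add, one_mul, hzz', mul_one]
        abel
      have h1 := rank_add_rank_le h0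
      have h2 : 2 ≤ ((z : Matrix (Fin 3) (Fin 3) F) - 1).rank := by
        have e : (R * ((z : Matrix (Fin 3) (Fin 3) F) - 1)) * C = (-2 : F) • (1 : Matrix (Fin 2) (Fin 2) F) := by
          have : ((z : Matrix (Fin 3) (Fin 3) F) - 1) = (-2 : F) • (C * R) := by
            ext p q
            rw [hzentry, Matrix.smul_apply, Matrix.mul_apply, Fin.sum_univ_two, smul_eq_mul]
          rw [this, Matrix.mul_smul, Matrix.smul_mul, ← Matrix.mul_assoc R C R, hRC, Matrix.one_mul, hRC]
        have h3 := (Matrix.rank_mul_le_left (R * ((z : Matrix (Fin 3) (Fin 3) F) - 1)) C).trans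
          (Matrix.rank_mul_le_right R _)
        rw [e, Matrix.rank_of_isUnit _ ((Matrix.isUnit_iff_isUnit_det _).mpr (isUnit_iff_ne_zero.mpr (by
          rw [Matrix.det_smul, Matrix.det_one, mul_one]; exact pow_ne_zero _ (neg_ne_zero.mpr h2c)))),
          Fintype.card_fin] at h3
        exact h3
      rw [Fintype.card_fin] at h1 ⊢
      omega
    · have := hzcomm (loT (a y * φ x))
      rw [hjmem] at this
      rw [Matrix.mul_add, Matrix.add_mul, Matrix.mul_one, Matrix.one_mul, ← this]

/-- Every conjugate of the subfield group is maximal in the special linear group, in dimension three. -/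
theorem sl_subfield_conj_maximal_three [Fintype F] {r : ℕ} (hr : r.Prime)
    (hcard : Fintype.card F = Nat.card F₀ ^ r) (P : GL (Fin 3) F) :
    Cfsg.Geo.IsMaximalIn (Cfsg.Geo.specialLinear (Fin 3) F)
      (Cfsg.Geo.subfieldSubgroup F₀ P ⊓ Cfsg.Geo.specialLinear (Fin 3) F) := by
  have h := isMaximalIn_conj P (sl_subfield_maximal_three (F₀ := F₀) hr hcard)
  have hinj : Function.Injective (MulAut.conj P).toMonoidHom := (MulAut.conj P).injective
  have hsl : (Cfsg.Geo.specialLinear (Fin 3) F).map (MulAut.conj P).toMonoidHom =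
      Cfsg.Geo.specialLinear (Fin 3) F := by
    refine le_antisymm ?_ fun g hg => ⟨P⁻¹ * g * P, ?_, ?_⟩
    · rintro _ ⟨g, hg, rfl⟩
      exact sl_conj_mem P g hg
    · have := sl_conj_mem P⁻¹ g hg
      rwa [inv_inv] at this
    · change P * (P⁻¹ * g * P) * P⁻¹ = g
      group
  rw [Subgroup.map_inf _ _ _ hinj, hsl, ← subfieldSubgroup_eq_map] at h
  exact h

end Cfsg.Agent.H60.SLThree
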