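import Cfsg.Agent.H99.SLFour.Unitary

/-!
The similarity group of a unitary form is maximal in the special linear group in dimension three.
-/

set_option autoImplicit false
set_option linter.unusedSectionVars false

namespace Cfsg.Agent.H60.SLThree

open Cfsg.Agent.H98 Cfsg.Agent.H98.Herm
open scoped Matrix

variable {ι : Type} [Fintype ι] [DecidableEq ι] {F : Type*} [Field F] [Finite F]
variable {σ : F ≃+* F} {f : (ι → F) → (ι → F) → F} (hf : Cfsg.Geo.IsUnitaryForm σ f)

include hf

/-- A hyperbolic pair and a vector orthogonal to it. -/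
structure UFrame (f : (ι → F) → (ι → F) → F) (e e' c : ι → F) : Prop where
  ee : f e e = 0
  e'e' : f e' e' = 0
  ee' : f e e' = 1
  e'e : f e' e = 1
  ce : f c e = 0
  ce' : f c e' = 0
  cc : f c c ≠ 0

variable (hn : Fintype.card ι = 3)
include hn

theorem exists_uframe {e : ι → F} (he0 : e ≠ 0) (hee : f e e = 0) : ∃ e' c, UFrame f e e' c := by
  obtain ⟨y, hy⟩ := (hf.nondegenerate e he0).2
  obtain ⟨e', -, h1, h2, h3⟩ := partner_in hf (U := ⊤) Submodule.mem_top Submodule.mem_top hee hy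
  have hU := finrank_perp hf (![e, e'] : Fin 2 → (ι → F))
  obtain ⟨c, hc, hc0⟩ := Submodule.exists_mem_ne_zero_of_ne_bot
    (p := LinearMap.ker (LinearMap.pi fun i => fl hf ((![e, e'] : Fin 2 → (ι → F)) i))) (fun h => by
      rw [h, finrank_bot] at hU; omega)
  rw [mem_perp hf] at hc
  have hce : f c e = 0 := hc 0
  have hce' : f c e' = 0 := hc 1
  refine ⟨e', c, hee, h1, h2, h3, hce, hce', fun hcc => ?_⟩
  -- otherwise a totally isotropic plane
  have hti : ∀ u ∈ Submodule.span F ({e, c} : Set (ι → F)), ∀ v ∈ Submodule.span F ({e, c} : Set (ι → F)), f u v = 0 := by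
    intro u hu v hv
    obtain ⟨a, b, rfl⟩ := Submodule.mem_span_pair.mp hu
    obtain ⟨a', b', rfl⟩ := Submodule.mem_span_pair.mp hv
    simp only [hf.add_left, Herm.add_right hf, hf.smul_left, Herm.smul_right hf, hee, hcc, hce, (eq_zero_comm hf).mp hce]
    ring
  have h := ti_bound hf _ hti
  have hli : LinearIndependent F ![e, c] := by
    rw [LinearIndependent.pair_iff]
    intro s t hst
    have h' := congrArg (fun x => f x e') hst
    simp only [hf.add_left, hf.smul_left, h2, hce', Herm.zero_left hf, mul_one, mul_zero, add_zero] at h'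
    rw [h', zero_smul, zero_add, smul_eq_zero] at hst
    exact ⟨h', hst.resolve_right hc0⟩
  have h2' := finrank_span_eq_card hli
  rw [show Set.range ![e, c] = {e, c} by simp [Set.pair_comm], Fintype.card_fin] at h2'
  rw [h2'] at h
  omega

/-- A vector orthogonal to a frame vanishes. -/
theorem UFrame.ext {e e' c : ι → F} (hfr : UFrame f e e' c) {x y : ι → F} (h1 : f x e = f y e)
    (h2 : f x e' = f y e') (h3 : f x c = f y c) : x = y := by
  set L : (ι → F) →ₗ[F] (Fin 3 → F) := LinearMap.pi fun i => fl hf (![e, e', c] i)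
  have hsurj : Function.Surjective L := fun v => by
    refine ⟨v 1 • e + v 0 • e' + (v 2 / f c c) • c, funext fun i => ?_⟩
    fin_cases i <;>
      simp [L, fl_apply, hf.add_left, hf.smul_left, hfr.ee, hfr.e'e', hfr.ee', hfr.e'e, hfr.ce, hfr.ce',
        (eq_zero_comm hf).mp hfr.ce, (eq_zero_comm hf).mp hfr.ce', hfr.cc]
  refine (LinearMap.injective_iff_surjective_of_finrank_eq_finrank (by simp [hn])).mpr hsurj (funext fun i => ?_)
  fin_cases i <;> simp [L, fl_apply, h1, h2, h3]

/-- The coordinates of a vector orthogonal to the first vector of a frame. -/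
theorem UFrame.decomp {e e' c : ι → F} (hfr : UFrame f e e' c) {x : ι → F} (hx : f x e = 0) :
    x = f x e' • e + (f x c / f c c) • c := by
  refine hfr.ext hf hn ?_ ?_ ?_ <;>
    simp [hf.add_left, hf.smul_left, hx, hfr.ee, hfr.ee', hfr.ce, hfr.ce', (eq_zero_comm hf).mp hfr.ce, hfr.cc]

omit hn in
/-- An element of the root group of an isotropic vector moving the orthogonal vector by any multiple of it. -/
theorem exists_root_element {e e' c : ι → F} (hfr : UFrame f e e' c) (ν : F) :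
    ∃ u ∈ Cfsg.Geo.similarityGroup f ⊓ Cfsg.Geo.specialLinear ι F, (∀ x y, f ((u : Matrix ι ι F) *ᵥ x) ((u : Matrix ι ι F) *ᵥ y) = f x y) ∧
      (u : Matrix ι ι F) *ᵥ e = e ∧ (u : Matrix ι ι F) *ᵥ c = c + ν • e := by
  set n := ν / f c c
  obtain ⟨μ, hμ⟩ := exists_trace hf (a := -(n * σ n * f c c)) (by
    rw [map_neg, map_mul, map_mul, hf.involutive, sigma_apply hf]; ring)
  have h1 : ((-σ n) • fl hf e) c = 0 := by simp [fl_apply, hfr.ce]
  have h2 : (n • fl hf c + (μ + n * σ n * f c c) • fl hf e) e = 0 := by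
    simp [fl_apply, (eq_zero_comm hf).mp hfr.ce, hfr.ee]
  set u := transGL _ e h2 * transGL _ c h1
  have hu : ∀ x, (u : Matrix ι ι F) *ᵥ x = x + (-σ n * f x e) • c + (n * f x c + μ * f x e) • e := fun x => by
    simp only [u, Units.val_mul, ← Matrix.mulVec_mulVec, transGL_mulVec, LinearMap.add_apply, LinearMap.smul_apply,
      fl_apply, smul_eq_mul, hf.add_left, hf.smul_left, hfr.ce]
    match_scalars <;> ring
  have hiso : ∀ x y, f ((u : Matrix ι ι F) *ᵥ x) ((u : Matrix ι ι F) *ᵥ y) = f x y := fun x y => by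
    simp only [hu, hf.add_left, Herm.add_right hf, hf.smul_left, Herm.smul_right hf, map_add, map_mul, map_neg,
      hf.involutive, hfr.ee, hfr.ce, (eq_zero_comm hf).mp hfr.ce, sigma_apply hf]
    linear_combination f x e * f e y * hμ
  refine ⟨u, ⟨⟨1, fun x y => by rw [hiso, Units.val_one, one_mul]⟩,
    Subgroup.mul_mem _ (transGL_mem_sl _ _ _) (transGL_mem_sl _ _ _)⟩, hiso, ?_, ?_⟩
  · rw [hu, hfr.ee, (eq_zero_comm hf).mp hfr.ce]; simp
  · rw [hu, hfr.ce]; simp [n, hfr.cc]

variable {M : Subgroup (GL ι F)}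
variable (hH : Cfsg.Geo.similarityGroup f ⊓ Cfsg.Geo.specialLinear ι F ≤ M)

omit hn in
/-- Conjugation by an isometry. -/
theorem hasTv_conj {g : GL ι F} (hg : g ∈ M)
    (hiso : ∀ x y, f ((g : Matrix ι ι F) *ᵥ x) ((g : Matrix ι ι F) *ᵥ y) = f x y) {a b : ι → F}
    (h : HasTv hf M a b) : HasTv hf M ((g : Matrix ι ι F) *ᵥ a) ((g : Matrix ι ι F) *ᵥ b) := by
  obtain ⟨hb, hbM⟩ := h
  have h2 := M.mul_mem (M.mul_mem hg hbM) (M.inv_mem hg)
  rw [conj_transGL] at h2
  refine hasTv_of_eq hf (LinearMap.ext fun x => ?_) h2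
  rw [LinearMap.comp_apply, Matrix.mulVecLin_apply, fl_apply, fl_apply]
  conv_rhs => rw [← gl_mulVec_inv g x, hiso]

omit hn in
/-- Moving a scalar from the centre to the functional. -/
theorem hasTv_scale {a b : ι → F} {k : F} (h : HasTv hf M (k • a) b) (hk : k ≠ 0) :
    HasTv hf M a (σ k • b) := by
  obtain ⟨hb, hbM⟩ := h
  have h' : (k • fl hf b) a = 0 := by rw [LinearMap.smul_apply, ← map_smul]; exact hb
  rw [transGL_scale hf _ a k hb h'] at hbM
  exact hasTv_of_eq hf (by rw [fl_smul hf, hf.involutive]) hbM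

include hH

/-- The full transvection group with centre and axis given by an isotropic vector moves to every partner. -/
theorem full_partner {e e' c : ι → F} (hfr : UFrame f e e' c) (he : ∀ t : F, HasTv hf M e (t • e)) :
    ∀ t : F, HasTv hf M e' (t • e') := by
  obtain ⟨ζ, hζ0, hζ⟩ := exists_skew hf
  have hd : σ (-1 / ζ) = -(-1 / ζ) := by rw [map_div₀, map_neg, map_one, hζ, div_neg]
  set g := uT hf hfr.ee (-1 / ζ) * uT hf hfr.e'e' ζ
  have hgM : g ∈ M := M.mul_mem (hH (uT_mem_sim hf hfr.ee hd)) (hH (uT_mem_sim hf hfr.e'e' hζ))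
  have hge : (g : Matrix ι ι F) *ᵥ e = ζ • e' := by
    simp only [g, Units.val_mul, ← Matrix.mulVec_mulVec, uT_mulVec, hfr.ee', hfr.e'e, hfr.ee, hf.add_left, hf.smul_left,
      mul_one, zero_add]
    match_scalars <;> field_simp <;> ring
  intro t
  have h := hasTv_conj hf hgM (fun x y => by
    simp only [g, Units.val_mul, ← Matrix.mulVec_mulVec, uT_iso hf hfr.ee hd, uT_iso hf hfr.e'e' hζ])
    (he (t / (σ ζ * ζ)))
  rw [Matrix.mulVec_smul, hge] at h
  have h2 := hasTv_scale hf h hζ0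
  convert h2 using 1
  rw [smul_smul, smul_smul]
  congr 1
  have : σ ζ ≠ 0 := by simpa using hζ0
  field_simp

/-- A transvection with isotropic centre and wrong axis gives the full transvection group of that centre. -/
theorem hasTv_all {a b : ι → F} (ha0 : a ≠ 0) (haa : f a a = 0) (hb : HasTv hf M a b) (hbne : ∀ k : F, b ≠ k • a) :
    ∀ x, f a x = 0 → HasTv hf M a x := by
  obtain ⟨a', c, hfr⟩ := exists_uframe hf hn ha0 haa
  have hba : f b a = 0 := (eq_zero_comm hf).mp hb.1
  have hdec := hfr.decomp hf hn hba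
  set β := f b a'
  set α := f b c / f c c
  have hα : α ≠ 0 := fun h => hbne β (by rw [hdec, h, zero_smul, add_zero])
  -- multiples of the centre
  have hroot : ∀ t : F, HasTv hf M a (t • a) := fun t => by
    obtain ⟨u, hu, hiso, hue, huc⟩ := exists_root_element hf hfr (t / α)
    have h := hasTv_conj hf (hH hu) hiso hb
    rw [hue] at h
    have h' := hasTv_add hf h (hasTv_neg hf hb)
    convert h' using 1
    rw [hdec, Matrix.mulVec_add, Matrix.mulVec_smul, Matrix.mulVec_smul, hue, huc, smul_add, smul_smul,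
      mul_div_cancel₀ _ hα]
    abel
  have hroot' := full_partner hf hn hH hfr hroot
  have hαc : HasTv hf M a (α • c) := by
    have := hasTv_add hf hb (hasTv_neg hf (hroot β))
    convert this using 1
    rw [hdec]; abel
  -- all multiples of `c`
  have hc : ∀ t : F, HasTv hf M a (t • c) := by
    intro t
    rcases eq_or_ne t 0 with rfl | ht
    · rw [zero_smul]; exact hasTv_zero hf a
    have hE : ∀ k : F, ∃ E ∈ M, ∀ x, (E : Matrix ι ι F) *ᵥ x = x + (k * f x a) • a := fun k => by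
      obtain ⟨h, hm⟩ := hroot (σ k)
      exact ⟨_, hm, fun x => by rw [transGL_mulVec, fl_apply, Herm.smul_right hf, hf.involutive]⟩
    have hE' : ∀ k : F, ∃ E ∈ M, ∀ x, (E : Matrix ι ι F) *ᵥ x = x + (k * f x a') • a' := fun k => by
      obtain ⟨h, hm⟩ := hroot' (σ k)
      exact ⟨_, hm, fun x => by rw [transGL_mulVec, fl_apply, Herm.smul_right hf, hf.involutive]⟩
    choose E hEM hEv using hE
    choose E' hE'M hE'v using hE'
    let w : F → GL ι F := fun k => E k * E' (-k⁻¹) * E k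
    have hwM : ∀ k, w k ∈ M := fun k => M.mul_mem (M.mul_mem (hEM _) (hE'M _)) (hEM _)
    have hw : ∀ k : F, k ≠ 0 → (w k : Matrix ι ι F) *ᵥ a = (-k⁻¹) • a' ∧ (w k : Matrix ι ι F) *ᵥ a' = k • a := by
      intro k hk
      constructor <;>
        simp only [w, Units.val_mul, ← Matrix.mulVec_mulVec, hEv, hE'v, hf.add_left, hf.smul_left, hfr.ee, hfr.ee',
          hfr.e'e', hfr.e'e, mul_zero, mul_one, zero_smul, add_zero, zero_add] <;>
        match_scalars <;> field_simp <;> ring
    set x := σ (t / α)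
    have hx : x ≠ 0 := by simpa [x] using div_ne_zero ht hα
    set h := w x * w (-1)
    have hha : (h : Matrix ι ι F) *ᵥ a = x • a := by
      rw [Units.val_mul, ← Matrix.mulVec_mulVec, (hw _ (neg_ne_zero.mpr one_ne_zero)).1, Matrix.mulVec_smul,
        (hw x hx).2]
      simp
    have hfix : ∀ z, f ((h : Matrix ι ι F) *ᵥ z) c = f z c := fun z => by
      simp only [h, w, Units.val_mul, ← Matrix.mulVec_mulVec, hEv, hE'v, hf.add_left, hf.smul_left,
        (eq_zero_comm hf).mp hfr.ce, (eq_zero_comm hf).mp hfr.ce', mul_zero, add_zero]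
    obtain ⟨h0, hm⟩ := hαc
    have h2 := M.mul_mem (M.mul_mem (M.mul_mem (hwM x) (hwM (-1))) hm) (M.inv_mem (M.mul_mem (hwM x) (hwM (-1))))
    rw [conj_transGL] at h2
    have h3 : HasTv hf M ((h : Matrix ι ι F) *ᵥ a) (α • c) := hasTv_of_eq hf (LinearMap.ext fun z => by
      rw [LinearMap.comp_apply, Matrix.mulVecLin_apply, fl_apply, fl_apply, Herm.smul_right hf, Herm.smul_right hf]
      conv_rhs => rw [← gl_mulVec_inv h z, hfix]) h2
    rw [hha] at h3
    have h4 := hasTv_scale hf h3 hx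
    convert h4 using 1
    rw [smul_smul, hf.involutive, div_mul_cancel₀ _ hα]
  intro x hx
  rw [hfr.decomp hf hn ((eq_zero_comm hf).mp hx)]
  exact hasTv_add hf (hroot _) (hc _)

/-- A transvection with isotropic centre and wrong axis generates the special linear group. -/
theorem sl_le_of_hasTv {a b : ι → F} (hMsl : M ≤ Cfsg.Geo.specialLinear ι F) (ha0 : a ≠ 0) (haa : f a a = 0)
    (hb : HasTv hf M a b) (hbne : ∀ k : F, b ≠ k • a) : Cfsg.Geo.specialLinear ι F ≤ M := by
  classical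
  obtain ⟨ζ, hζ0, hζ⟩ := exists_skew hf
  let C : Set (ι → F) := {v | ∀ (φ : (ι → F) →ₗ[F] F) (h : φ v = 0), transGL φ v h ∈ M}
  have haC : a ∈ C := by
    intro φ h
    obtain ⟨x, rfl⟩ := fl_surjective hf φ
    obtain ⟨h', hm⟩ := hasTv_all hf hn hH ha0 haa hb hbne x h
    exact hm
  have hsmul : ∀ (k : F), ∀ v ∈ C, k • v ∈ C := fun k v hv φ h => by
    rcases eq_or_ne k 0 with rfl | hk
    · convert M.one_mem using 1
      exact gl_ext fun y => by simp
    have h' : (k • φ) v = 0 := by rwa [LinearMap.smul_apply, ← map_smul]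
    rw [transGL_scale hf φ v k h h']
    exact hv _ _
  have hconj : ∀ g ∈ M, ∀ v ∈ C, (g : Matrix ι ι F) *ᵥ v ∈ C := by
    intro g hg v hv φ h
    have h' : (φ.comp (Matrix.mulVecLin (g : Matrix ι ι F))) v = 0 := h
    have := M.mul_mem (M.mul_mem hg (hv _ h')) (M.inv_mem hg)
    rw [conj_transGL] at this
    convert this using 1
    exact gl_ext fun y => by simp [gl_mulVec_inv]
  have hadd : ∀ u ∈ C, ∀ v ∈ C, u + v ∈ C := by
    intro u hu v hv
    by_cases hmem : u ∈ Submodule.span F {v}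
    · obtain ⟨k, rfl⟩ := Submodule.mem_span_singleton.mp hmem
      rw [show k • v + v = (k + 1) • v by rw [add_smul, one_smul]]
      exact hsmul _ _ hv
    · obtain ⟨φ, hφu, hφker⟩ := exists_functional hmem
      have hφv : φ v = 0 := hφker (Submodule.mem_span_singleton_self v)
      have := hconj _ (hv φ hφv) u hu
      rwa [transGL_mulVec, hφu, one_smul] at this
  let W : Submodule F (ι → F) :=
    { carrier := C
      add_mem' := fun {u v} hu hv => hadd u hu v hv
      zero_mem' := by simpa using hsmul 0 a haC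
      smul_mem' := fun k v hv => hsmul k v hv }
  have hnon : ∀ v w : ι → F, v ∈ W → f w w = 0 → f v w ≠ 0 → w ∈ W := by
    intro v w hv hw hne
    have h1 : (uT hf hw ζ : Matrix ι ι F) *ᵥ v ∈ W := hconj _ (hH (uT_mem_sim hf hw hζ)) v hv
    have h2 := W.smul_mem (ζ * f v w)⁻¹ (W.sub_mem h1 hv)
    rwa [uT_mulVec, add_sub_cancel_left, smul_smul, inv_mul_cancel₀ (mul_ne_zero hζ0 hne), one_smul] at h2
  have hiso : ∀ w, f w w = 0 → w ∈ W := by
    intro w hw
    rcases eq_or_ne w 0 with rfl | hw0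
    · exact W.zero_mem
    obtain ⟨u, huu, hau, hwu⟩ := exists_common hf ha0 hw0 haa hw
    exact hnon u w (hnon a u haC huu hau) hw (fun h => hwu ((eq_zero_comm hf).mp h))
  obtain ⟨e, -, e', -, q1, q2, q3, q4⟩ := exists_pair_in hf ⊤ (by rw [finrank_top, Module.finrank_pi]; omega)
  have htop : (⊤ : Submodule F (ι → F)) ≤ W :=
    le_of_isotropic hf Submodule.mem_top Submodule.mem_top q1 q2 q3 q4 fun w _ hw => hiso w hw
  exact sl_le_of_transvections M fun φ v h => (htop (Submodule.mem_top (x := v))) φ h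

/-- A transvection whose axis is given by an isotropic vector other than its centre generates. -/
theorem sl_le_of_axis {a b : ι → F} (hMsl : M ≤ Cfsg.Geo.specialLinear ι F) (hb0 : b ≠ 0) (hbb : f b b = 0)
    (h : HasTv hf M a b) (hane : ∀ k : F, a ≠ k • b) : Cfsg.Geo.specialLinear ι F ≤ M := by
  obtain ⟨ζ, hζ0, hζ⟩ := exists_skew hf
  obtain ⟨b', c, hfr⟩ := exists_uframe hf hn hb0 hbb
  have hab : f a b = 0 := h.1
  have hdec := hfr.decomp hf hn hab
  set β := f a b'
  set α := f a c / f c c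
  have hα : α ≠ 0 := fun h0 => hane β (by rw [hdec, h0, zero_smul, add_zero])
  obtain ⟨β', hβ'⟩ := exists_trace hf (a := -(α * σ α * f c c)) (by
    rw [map_neg, map_mul, map_mul, hf.involutive, sigma_apply hf]; ring)
  obtain ⟨u, hu, hiso, hue, huc⟩ := exists_root_element hf hfr ((β' - β) / α)
  have h1 := hasTv_conj hf (hH hu) hiso h
  rw [hue, hdec, Matrix.mulVec_add, Matrix.mulVec_smul, Matrix.mulVec_smul, hue, huc] at h1
  obtain ⟨h10, hTM⟩ := h1
  set a' := β • b + α • (c + ((β' - β) / α) • b)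
  have ha' : a' = α • c + β' • b := by
    simp only [a']
    rw [smul_add, smul_smul, mul_div_cancel₀ _ hα]
    module
  set T := transGL (fl hf b) a' h10
  have hTv : ∀ z, (T : Matrix ι ι F) *ᵥ z = z + f z b • a' := fun z => by rw [transGL_mulVec, fl_apply]
  set y := (T : Matrix ι ι F) *ᵥ b'
  have hy : y = b' + (α • c + β' • b) := by
    simp only [y, hTv, hfr.e'e, one_smul, ha']
  have hyy : f y y = 0 := by
    rw [hy]
    simp only [hf.add_left, Herm.add_right hf, hf.smul_left, Herm.smul_right hf, hfr.e'e', hfr.e'e, hfr.ee', hfr.ee,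
      hfr.ce, hfr.ce', (eq_zero_comm hf).mp hfr.ce, (eq_zero_comm hf).mp hfr.ce']
    linear_combination hβ'
  have h2 := M.mul_mem (M.mul_mem hTM (hH (uT_mem_sim hf hfr.e'e' hζ))) (M.inv_mem hTM)
  rw [uT, conj_transGL] at h2
  have hTi : ∀ z, ((T⁻¹ : GL ι F) : Matrix ι ι F) *ᵥ z = z - f z b • a' := fun z => by
    rw [transGL_inv, transGL_mulVec, LinearMap.neg_apply, fl_apply, neg_smul, sub_eq_add_neg]
  set b'' := σ ζ • (b' - σ β' • b)
  have hfl : (ζ • fl hf b').comp (Matrix.mulVecLin ((T⁻¹ : GL ι F) : Matrix ι ι F)) = fl hf b'' := by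
    refine LinearMap.ext fun z => ?_
    simp only [LinearMap.comp_apply, Matrix.mulVecLin_apply, LinearMap.smul_apply, fl_apply, smul_eq_mul, hTi, b'',
      Herm.smul_right hf, Herm.sub_right hf, Herm.sub_left hf, hf.smul_left, ha', hf.add_left, hfr.ce', hfr.ee',
      hf.involutive]
    ring
  have hy0 : y ≠ 0 := fun h0 => by
    have := congrArg (fun z => f z b) (hy.symm.trans h0)
    simp [hf.add_left, hf.smul_left, hfr.e'e, hfr.ce, hfr.ee, Herm.zero_left hf] at this
  refine sl_le_of_hasTv hf hn hH hMsl hy0 hyy (hasTv_of_eq hf hfl h2) fun k hk => ?_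
  have e1 := congrArg (fun z => f z c) hk
  simp [b'', hy, Herm.sub_left hf, hf.add_left, hf.smul_left, (eq_zero_comm hf).mp hfr.ce,
    (eq_zero_comm hf).mp hfr.ce', hα, hfr.cc] at e1
  have e2 := congrArg (fun z => f z b) hk
  simp [b'', e1, Herm.sub_left hf, hf.smul_left, hfr.e'e, hfr.ee, Herm.zero_left hf, hζ0] at e2

/-- A transvection other than a scaled unitary one generates. -/
theorem sl_le_of_bad {a b : ι → F} (hMsl : M ≤ Cfsg.Geo.specialLinear ι F) (ha0 : a ≠ 0) (hb0 : b ≠ 0)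
    (h : HasTv hf M a b) (hbad : f a a ≠ 0 ∨ ∀ k : F, b ≠ k • a) : Cfsg.Geo.specialLinear ι F ≤ M := by
  by_cases haa : f a a = 0
  · exact sl_le_of_hasTv hf hn hH hMsl ha0 haa h (hbad.resolve_left (not_not.mpr haa))
  by_cases hbb : f b b = 0
  · refine sl_le_of_axis hf hn hH hMsl hb0 hbb h fun k hk => haa ?_
    rw [hk, hf.smul_left, Herm.smul_right hf, hbb, mul_zero, mul_zero]
  obtain ⟨ζ, hζ0, hζ⟩ := exists_skew hf
  set U := LinearMap.ker (LinearMap.pi fun i => fl hf ((![a] : Fin 1 → (ι → F)) i)) with hUdef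
  have hU : ∀ x, x ∈ U ↔ f x a = 0 := fun x => by rw [hUdef, mem_perp hf]; simp [Fin.forall_fin_one]
  obtain ⟨u, hu, v, hv, q1, q2, q3, q4⟩ := Cfsg.Agent.H99.SLFour.pair_of_nondeg hf U (fun u hu hall => by
    by_contra hu0
    obtain ⟨y, hy⟩ := (hf.nondegenerate u hu0).1
    have hy' : y - (f y a / f a a) • a ∈ U := (hU _).mpr (by
      rw [Herm.sub_left hf, hf.smul_left, div_mul_cancel₀ _ haa, sub_self])
    have h := (eq_zero_comm hf).mp (hall _ hy')
    rw [Herm.sub_left hf, hf.smul_left, (eq_zero_comm hf).mp ((hU u).mp hu), mul_zero, sub_zero] at h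
    exact hy h) (by
    have := finrank_perp hf (![a] : Fin 1 → (ι → F))
    rw [← hUdef] at this
    omega)
  obtain ⟨w, hwU, hww, hbw⟩ : ∃ w ∈ U, f w w = 0 ∧ f b w ≠ 0 := by
    by_contra hc
    push Not at hc
    exact hbb (LinearMap.mem_ker.mp (le_of_isotropic hf (U := U) (S := LinearMap.ker (fl hf b)) hu hv q1 q2 q3 q4
      (fun w hw hww => LinearMap.mem_ker.mpr ((eq_zero_comm hf).mp (hc w hw hww)))
      ((hU b).mpr ((eq_zero_comm hf).mp h.1))))
  have hw := hasTv_move hf hH h hww ((eq_zero_comm hf).mp ((hU w).mp hwU)) hζ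
  have hk : ζ * f b w ≠ 0 := mul_ne_zero hζ0 hbw
  refine sl_le_of_axis hf hn hH hMsl ?_ ?_ hw fun k hk' => haa ?_
  · exact smul_ne_zero hk fun h0 => hbw (by rw [h0, Herm.zero_right hf])
  · rw [hf.smul_left, Herm.smul_right hf, hww, mul_zero, mul_zero]
  · rw [hk']
    simp only [hf.smul_left, Herm.smul_right hf, hww, mul_zero]

omit hn hH in
/-- A linear map preserving the form on isotropic vectors up to individual factors is a similarity. -/
theorem similarity_of_isotropic (hn : Fintype.card ι = 3) (g : GL ι F)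
    (h : ∀ v, f v v = 0 → v ≠ 0 → ∃ l : F, ∀ y, f y v = l * f ((g : Matrix ι ι F) *ᵥ y) ((g : Matrix ι ι F) *ᵥ v))
    (hiso : ∀ v, f v v = 0 → f ((g : Matrix ι ι F) *ᵥ v) ((g : Matrix ι ι F) *ᵥ v) = 0) :
    g ∈ Cfsg.Geo.similarityGroup f := by
  classical
  obtain ⟨ζ, hζ0, hζ⟩ := exists_skew hf
  set G : (ι → F) → (ι → F) := fun v => (g : Matrix ι ι F) *ᵥ v with hG
  obtain ⟨e, -, e', -, q1, q2, q3, q4⟩ := exists_pair_in hf ⊤ (by rw [finrank_top, Module.finrank_pi]; omega)
  have he0 : e ≠ 0 := fun h0 => by rw [h0, Herm.zero_left hf] at q3; exact zero_ne_one q3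
  obtain ⟨L, hL⟩ := h e q1 he0
  have hsame : ∀ v w l l', f v v = 0 → f w w = 0 → f v w ≠ 0 → (∀ y, f y v = l * f (G y) (G v)) →
      (∀ y, f y w = l' * f (G y) (G w)) → l = l' := by
    intro v w l l' hv hw hne hl hl'
    obtain ⟨μ, hμ0, hμ⟩ : ∃ μ : F, μ ≠ 0 ∧ σ μ * f v w + μ * f w v = 0 :=
      ⟨ζ * f v w, mul_ne_zero hζ0 hne, by rw [map_mul, hζ, sigma_apply hf]; ring⟩
    set z := v + μ • w with hzdef
    have hzz : f z z = 0 := by
      rw [hzdef, hf.add_left, Herm.add_right hf, Herm.add_right hf, hf.smul_left, hf.smul_left, Herm.smul_right hf, Herm.smul_right hf,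
        hv, hw]
      linear_combination hμ
    have hz0 : z ≠ 0 := fun h0 => by
      have h1 : f v z = 0 := by rw [h0, Herm.zero_right hf]
      rw [hzdef, Herm.add_right hf, Herm.smul_right hf, hv, zero_add, mul_eq_zero] at h1
      exact h1.elim (fun h2 => hμ0 (by rw [← hf.involutive μ, h2, map_zero])) hne
    obtain ⟨lz, hlz⟩ := h z hzz hz0
    have hGz : G z = G v + μ • G w := by simp [hG, hzdef, Matrix.mulVec_add, Matrix.mulVec_smul]
    have key : ∀ y, l * f (G y) (G v) + σ μ * (l' * f (G y) (G w)) =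
        lz * (f (G y) (G v) + σ μ * f (G y) (G w)) := fun y => by
      have := hlz y
      rw [hzdef, Herm.add_right hf, Herm.smul_right hf, hl, hl'] at this
      rw [this]
      change lz * f (G y) (G z) = _
      rw [hGz, Herm.add_right hf, Herm.smul_right hf]
    have hσμ : σ μ ≠ 0 := by simpa using hμ0
    have hvw : f (G v) (G w) ≠ 0 := fun h0 => hne (by rw [hl', h0, mul_zero])
    have hwv : f (G w) (G v) ≠ 0 := fun h0 => hvw ((eq_zero_comm hf).mp h0)
    have k1 := key v
    rw [hiso v hv, mul_zero, zero_add, zero_add, ← mul_assoc, ← mul_assoc] at k1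
    have k2 := key w
    rw [hiso w hw, mul_zero, mul_zero, add_zero, add_zero] at k2
    have e1 : l' = lz := mul_left_cancel₀ hσμ ((mul_right_cancel₀ hvw k1).trans (mul_comm _ _))
    exact (mul_right_cancel₀ hwv k2).trans e1.symm
  let S : Submodule F (ι → F) :=
    { carrier := {x | ∀ y, f y x = L * f (G y) (G x)}
      add_mem' := fun {x x'} hx hx' y => by
        rw [Herm.add_right hf, hx, hx']; simp only [hG, Matrix.mulVec_add, Herm.add_right hf]; ring
      zero_mem' := fun y => by simp [hG, Herm.zero_right hf]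
      smul_mem' := fun c x hx y => by
        rw [Herm.smul_right hf, hx]; simp only [hG, Matrix.mulVec_smul, Herm.smul_right hf]; ring }
  have htop : (⊤ : Submodule F (ι → F)) ≤ S := by
    refine le_of_isotropic hf Submodule.mem_top Submodule.mem_top q1 q2 q3 q4 fun w _ hw => ?_
    rcases eq_or_ne w 0 with rfl | hw0
    · exact S.zero_mem
    obtain ⟨l, hl⟩ := h w hw hw0
    obtain ⟨u, huu, heu, hwu⟩ := exists_common hf he0 hw0 q1 hw
    obtain ⟨lu, hlu⟩ := h u huu (fun h0 => heu (by rw [h0, Herm.zero_right hf]))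
    have e1 := hsame e u L lu q1 huu heu hL hlu
    have e2 := hsame w u l lu hw huu hwu hl hlu
    intro y
    rw [e1, ← e2]; exact hl y
  have hL0 : L ≠ 0 := fun h0 => by
    have := hL e'
    rw [q4, h0, zero_mul] at this
    exact one_ne_zero this
  refine ⟨Units.mk0 L⁻¹ (inv_ne_zero hL0), fun u v => ?_⟩
  rw [Units.val_mk0, htop (Submodule.mem_top (x := v)) u, ← mul_assoc, inv_mul_cancel₀ hL0, one_mul]

omit hn hH in
/-- The similarity group is maximal. -/
theorem sl_unitary_maximal_three (hn : Fintype.card ι = 3) :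
    Cfsg.Geo.IsMaximalIn (Cfsg.Geo.specialLinear ι F)
      (Cfsg.Geo.similarityGroup f ⊓ Cfsg.Geo.specialLinear ι F) := by
  classical
  obtain ⟨ζ, hζ0, hζ⟩ := exists_skew hf
  obtain ⟨e₀, -, e₁, -, q1, -, q3, -⟩ := exists_pair_in hf ⊤ (by rw [finrank_top, Module.finrank_pi]; omega)
  obtain ⟨e', c, hfr⟩ := exists_uframe hf hn (e := e₀) (fun h0 => by rw [h0, Herm.zero_left hf] at q3; exact zero_ne_one q3) q1
  have hstrict : ∃ x ∈ Cfsg.Geo.specialLinear ι F,
      x ∉ Cfsg.Geo.similarityGroup f ⊓ Cfsg.Geo.specialLinear ι F := by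
    have hze : fl hf e₀ c = 0 := hfr.ce
    refine ⟨transGL (fl hf e₀) c hze, transGL_mem_sl _ _ _, fun hm => ?_⟩
    obtain ⟨l, hl⟩ := hm.1
    have := hl e' e'
    rw [transGL_mulVec, fl_apply, hfr.e'e, one_smul, hfr.e'e', mul_zero, hf.add_left, Herm.add_right hf,
      Herm.add_right hf, hfr.e'e', hfr.ce', (eq_zero_comm hf).mp hfr.ce', zero_add, zero_add, zero_add] at this
    exact hfr.cc this
  refine isMaximalIn_of inf_le_right hstrict fun M h1 h2 g hgM hgH => ?_
  have hgS : g ∉ Cfsg.Geo.similarityGroup f := fun h => hgH ⟨h, h2 hgM⟩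
  by_contra hcon
  apply hgS
  have hgen : ∀ v, f v v = 0 → v ≠ 0 → f ((g : Matrix ι ι F) *ᵥ v) ((g : Matrix ι ι F) *ᵥ v) = 0 ∧
      ∃ l : F, ∀ y, f y v = l * f ((g : Matrix ι ι F) *ᵥ y) ((g : Matrix ι ι F) *ᵥ v) := by
    intro v hv hv0
    have := M.mul_mem (M.mul_mem hgM (h1 (uT_mem_sim hf hv hζ))) (M.inv_mem hgM)
    rw [uT, conj_transGL] at this
    set φ := (ζ • fl hf v).comp (Matrix.mulVecLin ((g⁻¹ : GL ι F) : Matrix ι ι F))
    obtain ⟨p, hp⟩ := fl_surjective hf φ
    have hφy : ∀ y, f ((g : Matrix ι ι F) *ᵥ y) p = ζ * f y v := fun y => by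
      rw [← fl_apply hf, hp]; simp [φ, gl_inv_mulVec, fl_apply]
    have hp0 : p ≠ 0 := fun h0 => by
      obtain ⟨y, hy⟩ := (hf.nondegenerate v hv0).1
      have := hφy y
      rw [h0, Herm.zero_right hf] at this
      exact mul_ne_zero hζ0 hy this.symm
    have ha0 : (g : Matrix ι ι F) *ᵥ v ≠ 0 := fun h0 =>
      hv0 (gl_mulVec_injective g (by change (g : Matrix ι ι F) *ᵥ v = (g : Matrix ι ι F) *ᵥ 0; rw [h0, Matrix.mulVec_zero]))
    have hgood : ¬ (f ((g : Matrix ι ι F) *ᵥ v) ((g : Matrix ι ι F) *ᵥ v) ≠ 0 ∨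
        ∀ k : F, p ≠ k • (g : Matrix ι ι F) *ᵥ v) := fun hbad =>
      hcon (sl_le_of_bad hf hn h1 h2 ha0 hp0 (hasTv_of_eq hf hp.symm this) hbad)
    push Not at hgood
    obtain ⟨hiso, k, hk⟩ := hgood
    refine ⟨hiso, σ k / ζ, fun y => ?_⟩
    have e := hφy y
    rw [hk, Herm.smul_right hf] at e
    rw [div_mul_eq_mul_div, e, mul_div_cancel_left₀ _ hζ0]
  refine similarity_of_isotropic hf hn g (fun v hv hv0 => (hgen v hv hv0).2) fun v hv => ?_
  rcases eq_or_ne v 0 with rfl | hv0
  · rw [Matrix.mulVec_zero, Herm.zero_left hf]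
  · exact (hgen v hv hv0).1

end Cfsg.Agent.H60.SLThree
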