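import Cfsg.Agent.H98.MaximalSL
import Cfsg.Agent.H60.SLThree.Subfield
import Cfsg.Agent.H60.SLThree.Monomial
import Cfsg.Agent.H60.SLThree.Unitary

/-!
Four conjuncts of the list of geometric maximal subgroups of the three dimensional special linear group.
-/

set_option autoImplicit false

namespace Cfsg.Agent.H60.SLThree

variable {F : Type*} [Field F] [Fintype F]

/-- Subspace stabilisers. -/
theorem sl_three_subspace_maximal :
    ∀ W : Submodule F (Fin 3 → F), W ≠ ⊥ → W ≠ ⊤ → Cfsg.Geo.IsMaximalIn (Cfsg.Geo.specialLinear (Fin 3) F) (Cfsg.Geo.subspaceStabilizer W ⊓ Cfsg.Geo.specialLinear (Fin 3) F) :=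
  fun W => Cfsg.Agent.H98.sl_stab_maximal W

/-- Stabilisers of decompositions into three lines. -/
theorem sl_three_monomial_maximal :
    5 ≤ Fintype.card F → ∀ D : Fin 3 → Submodule F (Fin 3 → F), Cfsg.Geo.IsMDecomposition 1 D → Cfsg.Geo.IsMaximalIn (Cfsg.Geo.specialLinear (Fin 3) F) (Cfsg.Geo.decompositionStabilizer D ⊓ Cfsg.Geo.specialLinear (Fin 3) F) :=
  fun hq D hD => monomial_maximal_three D hD hq

/-- Subfield groups. -/
theorem sl_three_subfield_maximal :
    ∀ (F₀ : Subfield F) (r : ℕ) (P : Matrix.GeneralLinearGroup (Fin 3) F), r.Prime → Fintype.card F = Nat.card F₀ ^ r → Cfsg.Geo.IsMaximalIn (Cfsg.Geo.specialLinear (Fin 3) F) (Cfsg.Geo.subfieldSubgroup F₀ P ⊓ Cfsg.Geo.specialLinear (Fin 3) F) :=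
  fun _ _ P hr hc => sl_subfield_conj_maximal_three hr hc P

/-- Similarity groups of unitary forms. -/
theorem sl_three_unitary_maximal :
    ∀ (σ : F ≃+* F) (f : (Fin 3 → F) → (Fin 3 → F) → F), Cfsg.Geo.IsUnitaryForm σ f → Cfsg.Geo.IsMaximalIn (Cfsg.Geo.specialLinear (Fin 3) F) (Cfsg.Geo.similarityGroup f ⊓ Cfsg.Geo.specialLinear (Fin 3) F) :=
  fun _ _ hf => sl_unitary_maximal_three hf (Fintype.card_fin 3)

end Cfsg.Agent.H60.SLThree
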