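import Cfsg.Agent.H1.DecompMono
import Cfsg.Agent.H60.SLThree.Dual

/-!
Overgroups of the monomial subgroup of the special linear group of dimension three without root elements: the
zero patterns of columns and of rows of inverses agree.
-/

set_option autoImplicit false

namespace Cfsg.Agent.H60.SLThree

open Matrix Cfsg.Agent.H1.Decomp

variable {F : Type*} [Field F]

theorem tri : ∀ p q s l : Fin 3, p ≠ q → p ≠ s → q ≠ s → l = p ∨ l = q ∨ l = s := by decide

theorem exists_others : ∀ p : Fin 3, ∃ q s, p ≠ q ∧ p ≠ s ∧ q ≠ s := by decide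

theorem sum3 {p q s : Fin 3} (hpq : p ≠ q) (hps : p ≠ s) (hqs : q ≠ s) (f : Fin 3 → F) :
    ∑ l, f l = f p + f q + f s := by
  rw [show (Finset.univ : Finset (Fin 3)) = {p, q, s} from (Finset.eq_univ_of_forall fun l => by
    simpa using tri p q s l hpq hps hqs).symm]
  rw [Finset.sum_insert (by simp [hpq, hps]), Finset.sum_insert (by simp [hqs]), Finset.sum_singleton, add_assoc]

/-- No root elements and all monomial elements. -/
structure NoRoot (M : Subgroup (GL (Fin 3) F)) : Prop where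
  mon : ContainsMon M
  noroot : ¬ HasRoot M
  exists_cube : ∃ μ : F, μ ≠ 0 ∧ μ ^ 3 ≠ 1

variable {M : Subgroup (GL (Fin 3) F)}

/-- The diagonal element with three given entries of product one. -/
theorem diag_mem (hM : ContainsMon M) (d : Fin 3 → Fˣ) (h : ∏ i, (d i : F) = 1) :
    ∃ D ∈ M, (D : Matrix (Fin 3) (Fin 3) F) = Matrix.diagonal fun i => (d i : F) :=
  ⟨monGL 1 d, hM _ _ (by simpa using h), by rw [monGL_coe, one_monMat_apply]⟩

/-- The diagonal element with `c` at one place. -/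
theorem homology_mem (hM : ContainsMon M) (j : Fin 3) {μ : F} (hμ : μ ≠ 0) :
    ∃ D ∈ M, (D : Matrix (Fin 3) (Fin 3) F) =
        μ • 1 + (μ⁻¹ * μ⁻¹ - μ) • vecMulVec (Pi.single j 1) (Pi.single j 1) ∧
      ((D⁻¹ : GL (Fin 3) F) : Matrix (Fin 3) (Fin 3) F) =
        μ⁻¹ • 1 + (μ * μ - μ⁻¹) • vecMulVec (Pi.single j 1) (Pi.single j 1) := by
  obtain ⟨q, s, hjq, hjs, hqs⟩ := exists_others j
  obtain ⟨D, hD, hDv⟩ := diag_mem hM (fun i => if i = j then Units.mk0 (μ⁻¹ * μ⁻¹) (by simp [hμ]) else Units.mk0 μ hμ) (by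
    rw [show ∏ i, ((if i = j then Units.mk0 (μ⁻¹ * μ⁻¹) (by simp [hμ]) else Units.mk0 μ hμ : Fˣ) : F) =
      ∏ i, (if i = j then μ⁻¹ * μ⁻¹ else μ) from Finset.prod_congr rfl fun i _ => by split_ifs <;> rfl]
    fin_cases j <;> simp [Fin.prod_univ_three] <;> field_simp)
  have hf : (D : Matrix (Fin 3) (Fin 3) F) =
      μ • 1 + (μ⁻¹ * μ⁻¹ - μ) • vecMulVec (Pi.single j 1) (Pi.single j 1) := by
    rw [hDv]
    ext a b
    by_cases hab : a = b
    · subst hab
      by_cases ha : a = j <;> simp [vecMulVec_apply, Pi.single_apply, ha]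
    · simp only [Matrix.add_apply, Matrix.smul_apply, diagonal_apply_ne _ hab, one_apply_ne hab, vecMulVec_apply,
        Pi.single_apply, smul_eq_mul, mul_zero, zero_add]
      by_cases ha : a = j
      · subst ha; simp [Ne.symm hab]
      · simp [ha]
  refine ⟨D, hD, hf, Units.inv_eq_of_mul_eq_one_right ?_⟩
  rw [hf]
  simp only [Matrix.add_mul, Matrix.mul_add, Matrix.smul_mul, Matrix.mul_smul, Matrix.one_mul, Matrix.mul_one,
    vecMulVec_mul_vecMulVec, dotProduct_single, Pi.single_eq_same, one_mul, one_smul, smul_smul]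
  match_scalars <;> field_simp <;> ring

/-- A conjugate of that diagonal element. -/
theorem conj_homology (g : GL (Fin 3) F) (j : Fin 3) (a c : F) {D : Matrix (Fin 3) (Fin 3) F}
    (hD : D = a • 1 + c • vecMulVec (Pi.single j 1) (Pi.single j 1)) (k l : Fin 3) :
    ((g : Matrix (Fin 3) (Fin 3) F) * D * ((g⁻¹ : GL (Fin 3) F) : Matrix (Fin 3) (Fin 3) F)) k l =
      (if k = l then a else 0) + c * ((g : Matrix (Fin 3) (Fin 3) F) k j *
        ((g⁻¹ : GL (Fin 3) F) : Matrix (Fin 3) (Fin 3) F) j l) := by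
  rw [hD]
  simp only [Matrix.add_mul, Matrix.mul_add, Matrix.smul_mul, Matrix.mul_smul, Matrix.mul_one, Units.mul_inv,
    mul_vecMulVec, vecMulVec_mul, Matrix.add_apply, Matrix.smul_apply, vecMulVec_apply, mulVec_single_one,
    single_one_vecMul, Matrix.col_apply, Matrix.row_apply, smul_eq_mul, Matrix.one_apply]
  split_ifs <;> simp

/-- A transvection with a coordinate centre gives a root element. -/
theorem NoRoot.no_row (hN : NoRoot M) {p : Fin 3} {r : Fin 3 → F} (h : Has M (Pi.single p 1) r) (hp : r p = 0) :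
    r = 0 := by
  by_contra hr
  obtain ⟨q, hq⟩ := Function.ne_iff.mp hr
  have hqp : q ≠ p := fun he => hq (he ▸ hp)
  obtain ⟨μ, hμ, hμ3⟩ := hN.exists_cube
  obtain ⟨D, hD, hDv, hDi⟩ := homology_mem hN.mon q hμ
  have h' : Has M (Pi.single p 1) (fun k => if k = q then μ ^ 3 * r q else r k) := by
    have h1 := h.conj hD
    rw [hDv, hDi] at h1
    have h2 : Has M (μ • Pi.single p 1)
        (μ⁻¹ • r + ((μ * μ - μ⁻¹) * r q) • Pi.single q 1) := by
      refine h1.congr ?_ ?_
      · ext k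
        rw [mulVec_single_one, Matrix.col_apply, Matrix.add_apply, Matrix.smul_apply, Matrix.smul_apply, vecMulVec_apply]
        simp [Matrix.one_apply, Pi.single_apply, hqp.symm]
      · simp [vecMul_add, vecMul_smul, vecMul_vecMulVec, smul_smul]
    refine ((Has.shift _).1 h2).congr rfl (funext fun k => ?_)
    by_cases hk : k = q
    · subst hk; simp; field_simp; ring
    · simp [hk, hμ]
  have h3 := h.transvection_of_same_left h' (by simp [hp, hqp.symm])
  refine hN.noroot ⟨p, q, hqp.symm, (μ ^ 3 - 1) * r q, mul_ne_zero (sub_ne_zero.mpr hμ3) hq, ?_⟩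
  have h4 : Has M (Pi.single p 1) (((μ ^ 3 - 1) * r q) • Pi.single q 1) := h3.congr rfl (funext fun k => by
    by_cases hk : k = q
    · subst hk; simp; ring
    · simp [hk])
  refine ((Has.shift _).2 h4).congr ?_ rfl
  ext k
  by_cases hk : k = p
  · subst hk; simp
  · simp [hk]

/-- If an element fixes a coordinate line, so does its inverse transpose. -/
theorem NoRoot.inv_row (hN : NoRoot M) {g : GL (Fin 3) F} (hg : g ∈ M) {p : Fin 3}
    (hcol : ∀ k, k ≠ p → (g : Matrix (Fin 3) (Fin 3) F) k p = 0) (l : Fin 3) (hl : l ≠ p) :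
    ((g⁻¹ : GL (Fin 3) F) : Matrix (Fin 3) (Fin 3) F) p l = 0 := by
  obtain ⟨μ, hμ, hμ3⟩ := hN.exists_cube
  obtain ⟨D, hD, hDv, hDi⟩ := homology_mem hN.mon p hμ
  set G := (g : Matrix (Fin 3) (Fin 3) F)
  set Gi := ((g⁻¹ : GL (Fin 3) F) : Matrix (Fin 3) (Fin 3) F)
  have hgi : G p p * Gi p p = 1 := by
    have h := congrFun (congrFun (show Gi * G = 1 from Units.inv_mul g) p) p
    rw [Matrix.mul_apply, one_apply_eq, Finset.sum_eq_single p (fun b _ hb => by rw [hcol b hb, mul_zero]) (by simp)] at h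
    rwa [mul_comm] at h
  set c := μ⁻¹ * μ⁻¹ - μ
  have hc : c ≠ 0 := fun h => hμ3 (by
    have h' : μ⁻¹ * μ⁻¹ = μ := sub_eq_zero.mp h
    field_simp at h'
    linear_combination -h')
  let r : Fin 3 → F := fun k => if k = p then 0 else c * G p p * Gi p k * μ⁻¹
  have hu : Has M (Pi.single p 1) r := by
    refine ⟨g * D * g⁻¹ * D⁻¹, M.mul_mem (M.mul_mem (M.mul_mem hg hD) (M.inv_mem hg)) (M.inv_mem hD), ?_⟩
    ext a b
    have hu := fun b => conj_homology g p μ c hDv a b
    rw [Units.val_mul, Units.val_mul, Units.val_mul, hDi, Matrix.mul_add, Matrix.mul_smul, Matrix.mul_one,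
      Matrix.mul_smul, mul_vecMulVec, Matrix.add_apply, Matrix.smul_apply, Matrix.smul_apply, vecMulVec_apply,
      Matrix.add_apply, vecMulVec_apply, mulVec_single_one, Matrix.col_apply, hu b, hu p]
    simp only [Pi.single_apply, Matrix.one_apply, smul_eq_mul, r]
    by_cases ha : a = p
    · subst ha
      by_cases hb : b = a
      · subst hb
        simp only [if_true, c]
        linear_combination ((μ⁻¹ * μ⁻¹ - μ) * μ⁻¹ + (μ * μ - μ⁻¹) * (μ⁻¹ * μ⁻¹ - μ)) * hgi +
          (μ * μ⁻¹ + 1) * (mul_inv_cancel₀ hμ)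
      · simp [hb, Ne.symm hb, G, Gi]; ring
    · rw [show (g : Matrix (Fin 3) (Fin 3) F) a p = 0 from hcol a ha]
      by_cases hab : a = b
      · subst hab; simp [ha, hμ]
      · simp [ha, hab]
  have hr := congrFun (hN.no_row hu (if_pos rfl)) l
  simp only [r, if_neg hl, Pi.zero_apply, mul_eq_zero, inv_eq_zero, hμ, or_false] at hr
  rcases hr with (h | h) | h
  · exact absurd h hc
  · rw [h, zero_mul] at hgi; exact absurd hgi zero_ne_one
  · exact h

/-- Duality preserves the hypotheses. -/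
theorem NoRoot.dual (hN : NoRoot M) : NoRoot (M.comap transInv) := by
  refine ⟨fun π d hd => ?_, fun ⟨a, b, hab, c, hc, x, hxM, hx⟩ => hN.noroot ?_, hN.exists_cube⟩
  · rw [Subgroup.mem_comap]
    have e : transInv (monGL π d : GL (Fin 3) F) = monGL π (fun i => (d i)⁻¹) := by
      refine Units.ext ?_
      rw [transInv_coe, monGL_inv_coe, monGL_coe]
      ext k i
      simp only [transpose_apply, monMat, Matrix.of_apply]
      by_cases h : k = π i
      · subst h; simp
      · rw [if_neg h, if_neg (fun h' => h (by rw [h', Equiv.apply_symm_apply]))]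
    rw [e]
    refine hN.mon _ _ ?_
    have hs : ((Equiv.Perm.sign π : ℤ) : F) * ((Equiv.Perm.sign π : ℤ) : F) = 1 := by
      rw [← Int.cast_mul, ← Units.val_mul, Int.units_mul_self, Units.val_one, Int.cast_one]
    have hp : (∏ i, ((d i)⁻¹ : Fˣ) : F) * ∏ i, (d i : F) = 1 := by
      rw [← Finset.prod_mul_distrib]; exact Finset.prod_eq_one fun i _ => by simp
    linear_combination (((Equiv.Perm.sign π : ℤ) : F) * (∏ i, ((d i)⁻¹ : Fˣ) : F)) * (-hd) +
      ((Equiv.Perm.sign π : ℤ) : F) * ((Equiv.Perm.sign π : ℤ) : F) * hp + hs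
  · refine ⟨b, a, hab.symm, -c, neg_ne_zero.mpr hc, transInv x, hxM, ?_⟩
    have hxi : ((x⁻¹ : GL (Fin 3) F) : Matrix (Fin 3) (Fin 3) F) =
        1 + vecMulVec (Pi.single a (-c)) (Pi.single b 1) := by
      refine Units.inv_eq_of_mul_eq_one_right ?_
      rw [hx, one_add_mul_one_add, Pi.single_neg, neg_vecMulVec]
      simp [hab.symm]
    rw [transInv_coe, hxi]
    ext r s
    simp only [transpose_apply, Matrix.add_apply, vecMulVec_apply, Matrix.one_apply, Pi.single_apply,
      eq_comm (a := s) (b := r)]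
    split_ifs <;> simp

/-- An element fixing a coordinate plane fixes the opposite line. -/
theorem NoRoot.col_of_row (hN : NoRoot M) {g : GL (Fin 3) F} (hg : g ∈ M) {p : Fin 3}
    (hrow : ∀ k, k ≠ p → (g : Matrix (Fin 3) (Fin 3) F) p k = 0) (l : Fin 3) (hl : l ≠ p) :
    (g : Matrix (Fin 3) (Fin 3) F) l p = 0 := by
  -- the inverse fixes the same plane, so its transpose fixes the line
  have hrow' : ∀ k, k ≠ p → ((g⁻¹ : GL (Fin 3) F) : Matrix (Fin 3) (Fin 3) F) p k = 0 := fun k hk => by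
    have h : ((g : Matrix (Fin 3) (Fin 3) F) * ((g⁻¹ : GL (Fin 3) F) : Matrix (Fin 3) (Fin 3) F)) p k = 0 := by
      rw [Units.mul_inv, one_apply_ne hk.symm]
    rw [Matrix.mul_apply, Finset.sum_eq_single p (fun b _ hb => by rw [hrow b hb, zero_mul]) (by simp)] at h
    refine (mul_eq_zero.mp h).resolve_left fun h0 => ?_
    refine Matrix.GeneralLinearGroup.det_ne_zero g (Matrix.det_eq_zero_of_row_eq_zero p fun b => ?_)
    by_cases hb : b = p
    · rw [hb]; exact h0
    · exact hrow b hb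
  have h := hN.dual.inv_row (g := transInv g) (by rw [Subgroup.mem_comap, transInv_transInv]; exact hg) (p := p)
    (fun k hk => by rw [transInv_coe, transpose_apply]; exact hrow' k hk) l hl
  rwa [transInv_inv_coe, transpose_apply] at h

/-- The zero patterns of a column and of the corresponding row of the inverse agree. -/
theorem NoRoot.pattern (hN : NoRoot M) {g : GL (Fin 3) F} (hg : g ∈ M) (j p : Fin 3)
    (h : (g : Matrix (Fin 3) (Fin 3) F) p j = 0) :
    ((g⁻¹ : GL (Fin 3) F) : Matrix (Fin 3) (Fin 3) F) j p = 0 := by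
  obtain ⟨μ, hμ, hμ3⟩ := hN.exists_cube
  obtain ⟨D, hD, hDv, -⟩ := homology_mem hN.mon j hμ
  have hu := fun a b => conj_homology g j μ _ hDv a b
  obtain ⟨k, hk⟩ : ∃ k, (g : Matrix (Fin 3) (Fin 3) F) k j ≠ 0 := by
    by_contra hc; push Not at hc
    exact Matrix.GeneralLinearGroup.det_ne_zero g (Matrix.det_eq_zero_of_column_eq_zero j hc)
  have hkp : k ≠ p := fun e => hk (e ▸ h)
  have h1 := hN.col_of_row (M.mul_mem (M.mul_mem hg hD) (M.inv_mem hg)) (p := p) (fun b hb => by
    rw [Units.val_mul, Units.val_mul, hu, if_neg hb.symm, h]; ring) k hkp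
  rw [Units.val_mul, Units.val_mul, hu, if_neg hkp, zero_add, mul_eq_zero, mul_eq_zero] at h1
  rcases h1 with h1 | h1 | h1
  · have h' : μ⁻¹ * μ⁻¹ = μ := sub_eq_zero.mp h1
    field_simp at h'
    exact absurd (by linear_combination -h' : μ ^ 3 = 1) hμ3
  · exact absurd h1 hk
  · exact h1

end Cfsg.Agent.H60.SLThree
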